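import Cfsg.Agent.H6.HNR.S3

/-! Facts on the presented double cover. -/

set_option autoImplicit false
set_option maxRecDepth 100000

namespace Cfsg.H6.HNR

open G R

/-- The presented group. -/
abbrev P : Type := HN.H.Grp

/-- The value of a word. -/
noncomputable def pw (w : List ℕ) : P := evL HN.H.ev w

theorem pw_append (u w : List ℕ) : pw (u ++ w) = pw u * pw w := evL_append _ _ _

theorem pw_inv (w : List ℕ) : pw (invW 434321399574757888 w) = (pw w)⁻¹ := evL_invW HN.H.hev w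

theorem pw_rp (k : ℕ) (w : List ℕ) : pw (rp k w) = pw w ^ k := evL_rp _ _ _

theorem π0_pw (w : List ℕ) : π0 (pw w) = evL ev w := hπw w

/-- Equality of two words. -/
noncomputable def peq (u w : List ℕ) : Bool := fixB HN.H.img 8 HN.H.bs (u ++ invW 434321399574757888 w)

/-- Inequality of two words. -/
noncomputable def pne (u w : List ℕ) : Bool := movB HN.H.img 1408 8 HN.H.bs (u ++ invW 434321399574757888 w)

/-- A conjugating word. -/
noncomputable def pcj (k u w : List ℕ) : Bool := peq (invW 434321399574757888 k ++ u ++ k) w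

theorem peq_spec {u w : List ℕ} (h : peq u w = true) : pw u = pw w := by
  have := HN.H.ora _ h
  rwa [evL_append, evL_invW HN.H.hev, mul_inv_eq_one] at this

theorem pne_spec {u w : List ℕ} (h : pne u w = true) : pw u ≠ pw w := fun e =>
  HN.H.hφ.mov h (by rw [evL_append, evL_invW HN.H.hev]; exact mul_inv_eq_one.mpr e)

theorem pcj_spec {k u w : List ℕ} (h : pcj k u w = true) : (pw k)⁻¹ * pw u * pw k = pw w := by
  rw [← peq_spec h, pw_append, pw_append, pw_inv]

theorem pcj_conj {k u w : List ℕ} (h : pcj k u w = true) : IsConj (pw u) (pw w) :=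
  pcj_spec h ▸ isConj_cj _ _

theorem pcm_spec {u w : List ℕ} (h : peq (u ++ w) (w ++ u) = true) : Commute (pw u) (pw w) := by
  have := peq_spec h
  rwa [pw_append, pw_append] at this

theorem pnc_spec {u w : List ℕ} (h : pne (u ++ w) (w ++ u) = true) : ¬ Commute (pw u) (pw w) :=
  fun e => pne_spec h (by rw [pw_append, pw_append]; exact e)

theorem inn_pw {w : List ℕ} : Inn (pw w) ↔ evL sgn w = 1 := by rw [Inn, π0_pw, sc_w]

theorem Inn.mul {a b : P} (ha : Inn a) (hb : Inn b) : Inn (a * b) := by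
  unfold Inn at *; rw [map_mul, map_mul, ha, hb, mul_one]

theorem inn_τ : Inn τ := by rw [Inn, τ_map, map_one]

theorem inn_one : Inn 1 := by rw [Inn, map_one, map_one]

theorem inn_sq (a : P) : Inn (a * a) := by
  rw [Inn, map_mul, map_mul]; exact Int.units_mul_self _

theorem inn_conj {a b : P} (h : IsConj a b) : Inn a ↔ Inn b := by
  rw [Inn, Inn, isConj_iff_eq.mp (sc.map_isConj (π0.map_isConj h))]

theorem inn_mul_iff {a b : P} (hb : Inn b) : Inn (a * b) ↔ Inn a := by
  unfold Inn at *; rw [map_mul, map_mul, hb, mul_one]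

theorem inn_inv {a : P} : Inn a⁻¹ ↔ Inn a := by
  rw [Inn, Inn, map_inv, map_inv, inv_eq_one]

theorem inn_out {a b : P} (ha : ¬ Inn a) (hb : ¬ Inn b) : Inn (a * b) := by
  unfold Inn at *
  rw [map_mul, map_mul, (Int.units_eq_one_or _).resolve_left ha,
    (Int.units_eq_one_or _).resolve_left hb]
  simp

/-- An inner involution. -/
noncomputable def j0 : P := pw jw

/-- An outer involution. -/
noncomputable def zz : P := pw [5]

/-- An outer involution of the other class. -/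
noncomputable def ee : P := pw (jw ++ [5])

/-- The word of an element of order four. -/
def iw : List ℕ := [1,7,4,4,7,4,7,7,7,3,6,3,7,4,4,6,6,4,7]

/-- An element of order four. -/
noncomputable def ih : P := pw iw

theorem τ_eq : τ = pw [1, 1] := rfl

theorem j0_sq : j0 * j0 = 1 := (pw_append _ _).symm.trans (peq_spec (w := []) (by decide +kernel))

theorem j0_ne : j0 ≠ 1 := pne_spec (w := []) (by decide +kernel)

theorem j0_τ : j0 ≠ τ := pne_spec (by decide +kernel)

theorem inn_j0 : Inn j0 := inn_pw.mpr (by decide +kernel)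

theorem inn_ih : Inn ih := inn_pw.mpr (by decide +kernel)

theorem out_zz : ¬ Inn zz := mt inn_pw.mp (by decide +kernel)

theorem out_ee : ¬ Inn ee := mt inn_pw.mp (by decide +kernel)

theorem ih_sq : ih * ih = j0 * τ :=
  (pw_append _ _).symm.trans ((peq_spec (by decide +kernel)).trans (pw_append _ _))

theorem ih_j0 : Commute ih j0 := pcm_spec (by decide +kernel)

theorem zz_τ : IsConj zz (zz * τ) := by
  have := pcj_conj (k := iw) (u := [5]) (w := [5] ++ [1, 1]) (by decide +kernel)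
  rwa [pw_append] at this

theorem ee_τ : IsConj ee (ee * τ) := by
  have := pcj_conj (k := iw) (u := jw ++ [5]) (w := jw ++ [5] ++ [1, 1]) (by decide +kernel)
  rwa [pw_append (jw ++ [5])] at this

theorem conj_τ {a b : P} (h : IsConj a b) : IsConj (a * τ) (b * τ) := by
  obtain ⟨k, rfl⟩ := IsConj.exists_cj h
  rw [show k⁻¹ * a * k * τ = k⁻¹ * (a * τ) * k by rw [mul_assoc _ k, (τ_cen k).eq]; group]
  exact isConj_cj _ _

theorem cls0 {x : P} (hx : π0 x * π0 x = 1) : x = 1 ∨ x = τ ∨ IsConj j0 x ∨ IsConj (j0 * τ) x ∨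
    (Inn x ∧ x * x = τ) ∨ IsConj zz x ∨ IsConj ee x := by
  obtain ⟨w, hw, e⟩ := I.classes hx
  have key : IsConj (pw w) x ∨ IsConj (pw w * τ) x := by
    obtain ⟨γ, hγ⟩ := IsConj.exists_cj e.symm
    obtain ⟨k, rfl⟩ := surj γ
    rcases dc.eq (x := x) (y := k⁻¹ * pw w * k) (by rw [← hγ, ← π0_pw]; simp) with h | h <;> rw [h]
    exacts [Or.inl (isConj_cj _ _), Or.inr (conj_τ (isConj_cj _ _))]
  simp only [I.Reps, List.mem_cons, List.not_mem_nil, or_false] at hw
  rcases hw with rfl | rfl | rfl | rfl | rfl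
  · rw [evL_nil, isConj_one_left] at e
    rcases dc.ker x e with h | h
    exacts [Or.inl h, Or.inr (Or.inl h)]
  · rcases key with h | h
    exacts [Or.inr (Or.inr (Or.inl h)), Or.inr (Or.inr (Or.inr (Or.inl h)))]
  · refine Or.inr (Or.inr (Or.inr (Or.inr (Or.inl ⟨?_, ?_⟩))))
    · rw [Inn, isConj_iff_eq.mp (sc.map_isConj e), sc_w]; decide +kernel
    · rw [dc.sq_cj (x := pw [1]) (by rw [← map_mul, ← pw_append]; exact τ_map)
        (by rw [π0_pw]; exact e.symm), ← pw_append]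
      rfl
  · exact Or.inr (Or.inr (Or.inr (Or.inr (Or.inr (Or.inl (key.elim id zz_τ.trans))))))
  · exact Or.inr (Or.inr (Or.inr (Or.inr (Or.inr (Or.inr (key.elim id ee_τ.trans))))))

theorem cls {x : P} (hx : x * x = 1) : x = 1 ∨ x = τ ∨ IsConj j0 x ∨ IsConj (j0 * τ) x ∨
    IsConj zz x ∨ IsConj ee x := by
  rcases cls0 (x := x) (by rw [← map_mul, hx, map_one]) with h | h | h | h | h | h
  exacts [Or.inl h, Or.inr (Or.inl h), Or.inr (Or.inr (Or.inl h)),
    Or.inr (Or.inr (Or.inr (Or.inl h))), absurd (h.2.symm.trans hx) τ_ne,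
    Or.inr (Or.inr (Or.inr (Or.inr h)))]

theorem cls_out {x : P} (hx : π0 x * π0 x = 1) (ho : ¬ Inn x) : IsConj zz x ∨ IsConj ee x := by
  rcases cls0 hx with h | h | h | h | h | h
  exacts [absurd (h ▸ inn_one) ho, absurd (h ▸ inn_τ) ho, absurd ((inn_conj h).mp inn_j0) ho,
    absurd ((inn_conj h).mp (inn_j0.mul inn_τ)) ho, absurd h.1 ho, h]

theorem cls_inn {x : P} (hx : x * x = 1) (ho : Inn x) :
    x = 1 ∨ x = τ ∨ IsConj j0 x ∨ IsConj (j0 * τ) x := by
  rcases cls hx with h | h | h | h | h | h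
  exacts [Or.inl h, Or.inr (Or.inl h), Or.inr (Or.inr (Or.inl h)), Or.inr (Or.inr (Or.inr h)),
    absurd ((inn_conj h).mpr ho) out_zz, absurd ((inn_conj h).mpr ho) out_ee]

theorem zz_sq : zz * zz = 1 := (pw_append _ _).symm.trans (peq_spec (w := []) (by decide +kernel))

theorem ee_sq : ee * ee = 1 := (pw_append _ _).symm.trans (peq_spec (w := []) (by decide +kernel))

theorem mem_K0 {S : Subgroup P} (h1 : τ ∈ S) (h2 : ∀ w ∈ Ws, pw w ∈ S) {p : P}
    (hp : Commute (π0 p) (evL ev jw)) : p ∈ S :=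
  dc.mem_of (xs := HN.H.ev) h1 h2 (by
    rw [funext hπ]
    exact stab (mem_fixS'.mpr (List.forall_mem_singleton.mpr ((tm.cent _).mpr hp))))

theorem comm_j0 {p : P} (hp : Commute (π0 p) (evL ev jw)) : Commute p j0 :=
  Subgroup.mem_centralizer_singleton_iff.mp (mem_K0 (S := Subgroup.centralizer {j0})
    (Subgroup.mem_centralizer_singleton_iff.mpr (τ_cen j0).eq.symm)
    (fun w hw => Subgroup.mem_centralizer_singleton_iff.mpr (pcm_spec (List.all_eq_true.mp
      (by decide +kernel : Ws.all (fun w => peq (w ++ jw) (jw ++ w)) = true) w hw))) hp)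

theorem delta {p : P} (hp : Commute p j0) :
    ∃ a b : ℕ, p⁻¹ * ih * p = ih * j0 ^ a * τ ^ b ∧ sc (π0 p) = (-1) ^ b := by
  have v2 : ∀ a b : ℕ, (j0 ^ a * τ ^ b)⁻¹ = j0 ^ a * τ ^ b := fun a b => by
    rw [mul_inv_rev, ← inv_pow, ← inv_pow, inv_eq_of_mul_eq_one_right j0_sq,
      inv_eq_of_mul_eq_one_right τ_sq, ((τ_cen _).pow_right b).eq]
  have cv : ∀ {p : P} (a b : ℕ), Commute p j0 → Commute p (j0 ^ a * τ ^ b) := fun a b h =>
    (h.pow_right a).mul_right ((τ_cen _).pow_right b)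
  let S : Subgroup P :=
    { carrier := {p | Commute p j0 ∧
        ∃ a b : ℕ, p⁻¹ * ih * p = ih * (j0 ^ a * τ ^ b) ∧ sc (π0 p) = (-1) ^ b}
      one_mem' := ⟨Commute.one_left _, 0, 0, by simp, by simp⟩
      mul_mem' := by
        rintro p q ⟨c1, a, b, e1, s1⟩ ⟨c2, a', b', e2, s2⟩
        refine ⟨c1.mul_left c2, a' + a, b' + b, ?_, by rw [map_mul, map_mul, s1, s2, pow_add, mul_comm]⟩
        rw [show (p * q)⁻¹ * ih * (p * q) = q⁻¹ * (p⁻¹ * ih * p) * q by group, e1,
          show q⁻¹ * (ih * (j0 ^ a * τ ^ b)) * q = (q⁻¹ * ih * q) * (q⁻¹ * (j0 ^ a * τ ^ b) * q) by group,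
          e2, cj_of_commute (cv a b c2), pow_add, pow_add, mul_assoc, mul_assoc, mul_assoc,
          ← mul_assoc (τ ^ b'), ← ((τ_cen _).pow_right b').eq, mul_assoc]
      inv_mem' := by
        rintro p ⟨c1, a, b, e1, s1⟩
        refine ⟨c1.inv_left, a, b, ?_, by rw [map_inv, map_inv, s1, ← inv_pow]; simp⟩
        rw [← v2, eq_mul_inv_iff_mul_eq, ← cj_of_commute (cv a b c1.inv_left),
          show p⁻¹⁻¹ * ih * p⁻¹ * (p⁻¹⁻¹ * (j0 ^ a * τ ^ b) * p⁻¹) = p * (ih * (j0 ^ a * τ ^ b)) * p⁻¹ by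
            group, ← e1]
        group }
  obtain ⟨_, a, b, e1, e2⟩ := mem_K0 (S := S) (p := p)
    ⟨(τ_cen j0).symm, 0, 0, by rw [cj_of_commute (τ_cen ih).symm]; simp, by rw [τ_map]; simp⟩
    (fun w hw => by
      have h := List.all_eq_true.mp (by decide +kernel : Ws.all (fun w => peq (w ++ jw) (jw ++ w) &&
        [(0, 0), (0, 1), (1, 0)].any fun e : ℕ × ℕ => pcj w iw (iw ++ (rp e.1 jw ++ rp e.2 [1, 1])) &&
          decide (evL sgn w = (-1) ^ e.2)) = true) w hw
      simp only [Bool.and_eq_true, List.any_eq_true, decide_eq_true_eq] at h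
      obtain ⟨h1, e, _, h2, h3⟩ := h
      refine ⟨pcm_spec h1, e.1, e.2, ?_, by rw [π0_pw, sc_w, h3]⟩
      have := pcj_spec h2
      rwa [pw_append, pw_append, pw_rp, pw_rp] at this) (by simpa [π0_pw, j0] using hp.map π0)
  exact ⟨a, b, by rw [e1, mul_assoc], e2⟩

/-- The standard involutions. -/
noncomputable def sa (i : ℕ) : Grp := evS ev (sW aS) i

theorem fix3 {γ : Grp} (h : ∀ i < 4, Commute γ (sa i)) : γ = 1 ∨ γ = evL ev jw := by
  have h1 := tm.fix (S := aS.take 4) (by decide +kernel) (y := γ) fun e he => by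
    obtain ⟨i, hi, rfl⟩ := List.mem_take_iff_getElem.mp he
    rw [← evS_sW]
    exact h i (by omega)
  obtain ⟨w, hw, e⟩ := hφ.enum (bs := bs) ub3 (L := [[], jw]) (x := γ) (fun w hw => hφ.mem_fixS (by decide)
    (List.all_eq_true.mp (by decide +kernel : [[], jw].all (fixB img 8 [44, 186, 22, 0]) = true) w hw))
    (by decide +kernel) fun b hb => h1 b (List.mem_of_elem_eq_true (List.all_eq_true.mp
      (by decide +kernel : [44, 186, 22, 0].all ((aS.take 4).map Prod.fst).elem = true) b hb))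
  simp only [List.mem_cons, List.not_mem_nil, or_false] at hw
  rcases hw with rfl | rfl
  exacts [Or.inl e.symm, Or.inr e.symm]

theorem z2G {γ : Grp} (h0 : Commute γ (evL ev jw))
    (h : ∀ i < 4, γ⁻¹ * sa i * γ = sa i ∨ γ⁻¹ * sa i * γ = sa i * evL ev jw) :
    ∃ δ, (δ = 1 ∨ δ = evL ev jw) ∧ (γ = δ ∨ γ * evL ev iw = δ) := by
  have jj := tm.sq
  have j1 : evL ev jw ≠ 1 := hφ.mov (bs := bs) (by decide +kernel)
  have cm : ∀ i < 4, Commute (sa i) (evL ev jw) := fun i hi => tm.comm0 (by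
    interval_cases i <;> decide +kernel)
  have sub : ∀ γ : Grp, Commute γ (evL ev jw) → γ⁻¹ * sa 1 * γ = sa 1 →
      (∀ i, 1 < i → i < 4 → γ⁻¹ * sa i * γ = sa i ∨ γ⁻¹ * sa i * γ = sa i * evL ev jw) →
      γ = 1 ∨ γ = evL ev jw := fun γ h0 h1 h => fix3 fun i hi => by
    by_cases i0 : i = 0
    · rw [i0]; exact h0
    by_cases i1 : i = 1
    · rw [i1]; exact commute_of_cj h1
    refine commute_of_cj ((h i (by omega) hi).resolve_right fun e => j1 ?_)
    have o3 : (sa 1 * sa i) ^ 3 = 1 := by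
      rw [sa, sa, evS, evS, ← evL_append, ← evL_rp]
      refine ora _ ?_
      obtain rfl | rfl : i = 2 ∨ i = 3 := by omega
      all_goals decide +kernel
    have o4 : (γ⁻¹ * sa 1 * γ * (γ⁻¹ * sa i * γ)) ^ 3 = 1 := by
      rw [show γ⁻¹ * sa 1 * γ * (γ⁻¹ * sa i * γ) = γ⁻¹ * (sa 1 * sa i) * γ⁻¹⁻¹ by group, conj_pow, o3]
      group
    rwa [h1, e, ← mul_assoc, ((cm 1 (by omega)).mul_left (cm i hi)).mul_pow, o3, one_mul,
      cube_of_sq jj] at o4
  have ci : Commute (evL ev iw) (evL ev jw) := tm.comm0 (by decide +kernel)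
  have ia : ∀ i, 0 < i → i < 4 → (evL ev iw)⁻¹ * sa i * evL ev iw = sa i * evL ev jw := fun i h1 h2 => by
    rw [sa, evS, ← evL_invW hev, ← evL_append, ← evL_append, ← evL_append]
    refine tm.eq ?_
    interval_cases i <;> decide +kernel
  have ib : ∀ i, 0 < i → i < 4 → (evL ev iw)⁻¹ * (sa i * evL ev jw) * evL ev iw = sa i := fun i h1 h2 => by
    rw [show (evL ev iw)⁻¹ * (sa i * evL ev jw) * evL ev iw = (evL ev iw)⁻¹ * sa i * evL ev iw *
      ((evL ev iw)⁻¹ * evL ev jw * evL ev iw) by group, ia i h1 h2, cj_of_commute ci, mul_assoc, jj,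
      mul_one]
  have mv : ∀ x, (γ * evL ev iw)⁻¹ * x * (γ * evL ev iw) = (evL ev iw)⁻¹ * (γ⁻¹ * x * γ) * evL ev iw :=
    fun x => by group
  rcases h 1 (by omega) with h1 | h1
  · exact ⟨γ, sub γ h0 h1 fun i _ hi => h i hi, Or.inl rfl⟩
  · refine ⟨_, sub _ (h0.mul_left ci) (by rw [mv, h1, ib 1 (by omega) (by omega)]) fun i a b => ?_,
      Or.inr rfl⟩
    rcases h i b with e | e <;> rw [mv, e]
    exacts [Or.inr (ia i (by omega) b), Or.inl (ib i (by omega) b)]

/-- The four-group of the two involutions. -/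
def V0 (x : P) : Prop := x = 1 ∨ x = τ ∨ x = j0 ∨ x = j0 * τ

theorem v0_of {x : P} (h : π0 x = 1 ∨ π0 x = evL ev jw) : V0 x := by
  rcases h with h | h
  · rcases dc.ker x h with h | h
    exacts [Or.inl h, Or.inr (Or.inl h)]
  · rcases dc.eq (y := j0) (h.trans (π0_pw jw).symm) with h | h
    exacts [Or.inr (Or.inr (Or.inl h)), Or.inr (Or.inr (Or.inr h))]

theorem V0.map {x : P} (h : V0 x) : π0 x = 1 ∨ π0 x = evL ev jw := by
  rcases h with rfl | rfl | rfl | rfl
  exacts [Or.inl (map_one _), Or.inl τ_map, Or.inr (π0_pw _),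
    Or.inr (by rw [map_mul, τ_map, mul_one]; exact π0_pw _)]

theorem V0.spec {x : P} (h : V0 x) : x * x = 1 ∧ Inn x ∧ ∀ p, Commute p j0 → Commute p x := by
  rcases h with rfl | rfl | rfl | rfl
  exacts [⟨one_mul 1, inn_one, fun p _ => Commute.one_right p⟩, ⟨τ_sq, inn_τ, fun p _ => τ_cen p⟩,
    ⟨j0_sq, inn_j0, fun _ h => h⟩,
    ⟨sq_mul j0_sq τ_sq (τ_cen _), inn_j0.mul inn_τ, fun p h => h.mul_right (τ_cen p)⟩]

/-- The second centre of the centraliser. -/
theorem z2P {p : P} (h0 : Commute p j0) (h : ∀ k, Commute k j0 → V0 (k⁻¹ * (p⁻¹ * k * p))) :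
    V0 p ∨ V0 (p * ih) := by
  obtain ⟨δ, h1, h2⟩ := z2G (γ := π0 p) (by simpa [π0_pw, j0] using h0.map π0) fun i hi => by
    have e : sa i = π0 (pw ((sW aS).getD i [])) := (π0_pw _).symm
    have := (h (pw ((sW aS).getD i [])) (pcm_spec (by interval_cases i <;> decide +kernel))).map
    simp only [map_mul, map_inv, ← e] at this
    rcases this with h | h
    exacts [Or.inl (inv_mul_eq_one.mp h).symm, Or.inr (inv_mul_eq_iff_eq_mul.mp h)]
  rcases h2 with h2 | h2
  · exact Or.inl (v0_of (h2 ▸ h1))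
  · exact Or.inr (v0_of (by rw [map_mul, ih, π0_pw, h2]; exact h1))

end Cfsg.H6.HNR
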