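import Cfsg.Agent.H6.HNR.R.Main
import Cfsg.Agent.H6.HNR.I.Main
import Cfsg.Agent.H6.HS

/-! The involution centraliser maps onto the automorphism group of the Higman–Sims group. -/

set_option autoImplicit false
set_option maxRecDepth 100000

namespace Cfsg.H6.HNR

open G R

/-- The signs of the letters. -/
def sgn (l : ℕ) : ℤˣ := if l = 5 then -1 else 1

theorem lifts : ∃ s : Grp →* ℤˣ, ∀ l, s (ev l) = sgn l :=
  lift (good_of_rels (m := 8) rfl (fun l h => if_neg (by omega)) (by norm_num)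
    (List.forall_iff_forall_mem.mp (by decide +kernel)))
    (List.forall_iff_forall_mem.mp (by decide +kernel))

/-- The sign character. -/
noncomputable def sc : Grp →* ℤˣ := lifts.choose

theorem sc_w (w : List ℕ) : sc (evL ev w) = evL sgn w := by
  rw [map_evL, sc, funext lifts.choose_spec]

/-- The image of the double cover. -/
noncomputable def Kb : Subgroup Grp := HS.K.map π0

theorem Kb_eq : Kb = gen ev HS.sK := by rw [Kb, HS.K, map_gen, funext hπ]

theorem τ_K : τ ∈ HS.K := HS.K.mul_mem (HS.hK 1) (HS.K.mul_mem (HS.hK 1) HS.K.one_mem)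

theorem Kb_index : Kb.index = 2 := by
  rw [Kb, Subgroup.index_map, MonoidHom.range_eq_top.mpr surj, Subgroup.index_top, mul_one,
    sup_eq_left.mpr, HS.cards.1]
  intro x hx
  rcases dc.ker x hx with rfl | rfl
  exacts [HS.K.one_mem, τ_K]

theorem mem_Kb {γ : Grp} : γ ∈ Kb ↔ sc γ = 1 := by
  have h1 : Kb ≤ sc.ker := Kb_eq ▸ gen_le fun w hw => by
    rw [MonoidHom.mem_ker, sc_w]
    exact List.forall_iff_forall_mem.mp (by decide +kernel : HS.sK.Forall (evL sgn · = 1)) w hw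
  have h2 : sc (evL ev [5]) ≠ 1 := by rw [sc_w]; decide +kernel
  refine ⟨fun h => h1 h, fun h => by_contra fun hn => h2 ?_⟩
  have := h1 ((Subgroup.mul_mem_iff_of_index_two Kb_index).mpr
    (iff_of_false hn fun e => h2 (h1 e)) : γ * evL ev [5] ∈ Kb)
  rwa [MonoidHom.mem_ker, map_mul, h, one_mul] at this

theorem card0 : Nat.card (fixS φ [0]) = 15360 := by
  have := finite
  have h1 := Subgroup.card_mul_index (fixS φ [0])
  have h2 := lb0.1
  have h3 := ub0.2
  have h4 : (orb φ ⊤ 0).ncard ≤ 5775 := by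
    have : orb φ ⊤ 0 ⊆ (Finset.range 5775 : Set ℕ) := by
      rintro _ ⟨g, _, rfl⟩
      simpa using tm.lt g
    simpa using Set.ncard_le_ncard this
  rw [card, index_fixS] at h1
  have h5 := Nat.mul_le_mul_left (Nat.card (fixS φ [0])) h4
  omega

theorem no2K (L : Subgroup HS.K) (h : ∀ a b, a ∉ L → b ∉ L → a * b ∈ L) : L = ⊤ := by
  by_contra hn
  obtain ⟨a, ha⟩ : ∃ a, a ∉ L := by
    by_contra hc
    exact hn (eq_top_iff.mpr fun x _ => by_contra fun e => hc ⟨x, e⟩)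
  refine no_index_two HS.hXK (HS.relsK (R := [[1,2], [3,4], [5,6], [5,6,4,6,5,6,4,6,5,6,4,6,5,6,4,6,5,6,4,6], [3,5,2,1,3,3,5,2,1,3,3,5,2,1,3,3,5,2,1,3,3,5,2,1,3], [4,4,5,1,4,4,5,1,4,4,5,1,4,4,5,1,4,4,5,1,4,4,5,1,4,4,5,1]]) (by decide +kernel)) (C := [[0,4,5], [4,5], [0,1,3,4], [0,3,4], [0,4], [0,2,4]]) (by decide +kernel) L ?_
  refine Subgroup.index_eq_two_iff.mpr ⟨a, fun b => ?_⟩
  by_cases hb : b ∈ L
  · exact Or.inr ⟨hb, fun e => ha ((L.mul_mem_cancel_left hb).mp e)⟩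
  · exact Or.inl ⟨h b a hb ha, hb⟩

theorem exists_ι : ∃ ι : Spor.HS →* Grp, Function.Injective ι ∧ ι.range = Kb := by
  have hk : HS.f.ker ≤ (π0.comp HS.K.subtype).ker := by
    rw [HS.cards.2, Subgroup.zpowers_le, MonoidHom.mem_ker]
    show π0 (evL HS.evK [1, 1]).1 = 1
    rw [HS.coeK]
    exact τ_map
  let e := QuotientGroup.quotientKerEquivOfSurjective HS.f HS.f_surj
  let ι := (QuotientGroup.lift HS.f.ker (π0.comp HS.K.subtype) hk).comp e.symm.toMonoidHom
  have hι : ∀ k, ι (HS.f k) = π0 k := fun k => by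
    have : e.symm (HS.f k) = (k : HS.K ⧸ HS.f.ker) := e.symm_apply_eq.mpr rfl
    show QuotientGroup.lift _ _ hk (e.symm (HS.f k)) = _
    rw [this]; rfl
  refine ⟨ι, (injective_iff_map_eq_one ι).mpr fun x hx => ?_, ?_⟩
  · obtain ⟨k, rfl⟩ := HS.f_surj x
    rw [hι] at hx
    rcases dc.ker _ hx with h | h
    · rw [show k = 1 from Subtype.ext h, map_one]
    · rw [show k = evL HS.evK [1, 1] from Subtype.ext (h.trans (HS.coeK [1, 1]).symm)]
      exact HS.z_ker (Subgroup.mem_zpowers _)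
  · ext γ
    constructor
    · rintro ⟨x, rfl⟩
      obtain ⟨k, rfl⟩ := HS.f_surj x
      exact ⟨k, k.2, (hι k).symm⟩
    · rintro ⟨k, hk, rfl⟩
      exact ⟨_, hι ⟨k, hk⟩⟩

theorem cent_bot {γ : Grp} (h : ∀ k ∈ Kb, Commute γ k) : γ = 1 := by
  have h1 := tm.fix bhS (y := γ) fun e he => h _ (mem_Kb.mpr (by
    rw [sc_w]
    exact List.forall_iff_forall_mem.mp (by decide +kernel : bS.Forall (evL sgn ·.2.2 = 1)) e he))
  rw [← Subgroup.mem_bot, ← main.2.1]
  exact fun b hb => h1 b (List.mem_of_elem_eq_true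
    (List.all_eq_true.mp (by decide +kernel : bs.all (bS.map Prod.fst).elem = true) b hb))

variable {M : Type*} [Group M]

theorem same_class {ρ ρ' : M →* Grp} (h1 : ρ.range = Kb) (h2 : ρ'.range = Kb)
    (hk : ∀ m, ρ' m = 1 ↔ ρ m = 1) {m : M} (hm : IsConj (evL ev jw) (ρ m)) :
    IsConj (evL ev jw) (ρ' m) := by
  have he : ∀ u v, ρ' u = ρ' v ↔ ρ u = ρ v := fun u v => by
    rw [← mul_inv_eq_one, ← map_inv, ← map_mul, hk, map_mul, map_inv, mul_inv_eq_one]
  have a1 : ρ' m * ρ' m = 1 := by rw [← map_mul, hk, map_mul]; exact tm.sq_of hm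
  have a2 : sc (ρ' m) = 1 := mem_Kb.mp (h2 ▸ ⟨m, rfl⟩)
  have out : ∀ w, IsConj (ρ' m) (evL ev w) → evL sgn w = 1 := fun w e => by
    rw [← sc_w, ← isConj_iff_eq.mp (sc.map_isConj e), a2]
  obtain ⟨w, hw, e⟩ := I.classes a1
  simp only [I.Reps, List.mem_cons, List.not_mem_nil, or_false] at hw
  rcases hw with rfl | rfl | rfl | rfl | rfl
  · rw [evL_nil, isConj_one_left, hk] at e
    rw [e, isConj_one_left] at hm
    exact absurd hm (hφ.mov (bs := bs) (by decide +kernel))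
  · exact e.symm
  · exfalso
    obtain ⟨γ, hγ⟩ := IsConj.exists_cj e.symm
    obtain ⟨k, hk'⟩ := IsConj.exists_cj hm.symm
    have lf : ∀ w, evL sgn w = 1 → ∃ u, ρ' u = γ⁻¹ * evL ev w * γ := fun w hw => by
      have : γ⁻¹ * evL ev w * γ ∈ ρ'.range := by
        rw [h2, mem_Kb, map_mul, map_mul, sc_w, hw, mul_one, map_inv, inv_mul_cancel]
      exact this
    obtain ⟨u, hu⟩ := lf [3,7,3,3,7,3] (by decide +kernel)
    obtain ⟨v, hv⟩ := lf [1,5,3,6,5,7,7,3] (by decide +kernel)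
    have tr : ∀ w, ρ' (evL (fun l => if l = 1 then m else if l = 2 then u else v) w) =
        γ⁻¹ * evL ev (subst [[1,5,3,6,5,7,7,3], [1], [3,7,3,3,7,3], [1,5,3,6,5,7,7,3]] w) * γ ∨ ∃ l ∈ w, 3 < l := fun w => by
      by_cases hw : ∃ l ∈ w, 3 < l
      · exact Or.inr hw
      left
      rw [map_evL, ← evL_subst, ← evL_conj]
      refine evL_congr fun l hl => ?_
      have : l ≤ 3 := by_contra fun c => hw ⟨l, hl, by omega⟩
      interval_cases l
      exacts [hv, by simpa [evS, evL] using hγ.symm, hu, hv]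
    have eq : ∀ w w', (w ++ w').all (· ≤ 3) = true →
        (evL (fun l => k⁻¹ * ρ (if l = 1 then m else if l = 2 then u else v) * k) w =
          evL (fun l => k⁻¹ * ρ (if l = 1 then m else if l = 2 then u else v) * k) w' ↔
        evL ev (subst [[1,5,3,6,5,7,7,3], [1], [3,7,3,3,7,3], [1,5,3,6,5,7,7,3]] w) = evL ev (subst [[1,5,3,6,5,7,7,3], [1], [3,7,3,3,7,3], [1,5,3,6,5,7,7,3]] w')) := by
      intro w w' hw
      simp only [List.all_eq_true, List.mem_append, decide_eq_true_eq] at hw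
      have b1 := (tr w).resolve_right fun ⟨l, h, h'⟩ => by have := hw l (Or.inl h); omega
      have b2 := (tr w').resolve_right fun ⟨l, h, h'⟩ => by have := hw l (Or.inr h); omega
      rw [evL_conj, evL_conj, mul_left_inj, mul_right_inj, ← map_evL, ← map_evL, ← he, b1, b2,
        mul_left_inj, mul_right_inj]
    have ne : ∀ w w', movB img 5775 8 bs (w ++ invW 434321399574757888 w') = true → evL ev w ≠ evL ev w' :=
      fun w w' h e => hφ.mov h (by rw [evL_append, evL_invW hev, e, mul_inv_cancel])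
    have := finite
    have h9 := nine_dvd (H := fixS φ [0]) (a := k⁻¹ * ρ u * k) (b := k⁻¹ * ρ v * k)
      (mem_fixS'.mpr (List.forall_mem_singleton.mpr <|
        (tm.cent _).mpr (by
          simpa [evL, hk', Commute, SemiconjBy] using
            (eq [2, 1] [1, 2] rfl).mpr (tm.eq (by decide +kernel)))))
      (mem_fixS'.mpr (List.forall_mem_singleton.mpr <|
        (tm.cent _).mpr (by
          simpa [evL, hk', Commute, SemiconjBy] using
            (eq [3, 1] [1, 3] rfl).mpr (tm.eq (by decide +kernel)))))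
      (by simpa [evL, pow_succ, mul_assoc] using (eq [2, 2, 2] [] rfl).mpr (tm.eq (by decide +kernel)))
      (by simpa [evL, pow_succ, mul_assoc] using (eq [3, 3, 3] [] rfl).mpr (tm.eq (by decide +kernel)))
      (by simpa [evL, Commute, SemiconjBy] using (eq [2, 3] [3, 2] rfl).mpr (tm.eq (by decide +kernel)))
      (by simpa [evL] using mt (eq [2] [] rfl).mp (ne _ _ (by decide +kernel)))
      (by simpa [evL] using mt (eq [3] [] rfl).mp (ne _ _ (by decide +kernel)))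
      (by simpa [evL] using mt (eq [2] [3] rfl).mp (ne _ _ (by decide +kernel)))
      (by simpa [evL] using mt (eq [2, 3] [] rfl).mp (ne _ _ (by decide +kernel)))
    rw [card0] at h9
    exact absurd h9 (by norm_num)
  · exact absurd (out _ e) (by decide +kernel)
  · exact absurd (out _ e) (by decide +kernel)

theorem exists_conj {ρ ρ' : M →* Grp} (h1 : ρ.range = Kb) (h2 : ρ'.range = Kb)
    (hk : ∀ m, ρ' m = 1 ↔ ρ m = 1) : ∃ γ, ∀ m, ρ' m = γ⁻¹ * ρ m * γ := by
  have lf : ∀ l, ∃ u, ρ u = evS ev (sW bS) l := fun l => by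
    have : evS ev (sW bS) l ∈ ρ.range := h1 ▸ evS_mem (fun w hw => mem_Kb.mpr (by
      rw [sc_w]
      exact List.forall_iff_forall_mem.mp (by decide +kernel : (sW bS).Forall (evL sgn · = 1)) w hw)) l
    exact this
  choose ms hms using lf
  have hw : ∀ w, evL (fun l => ρ' (ms l)) w = 1 ↔ evL ev (subst (sW bS) w) = 1 := fun w => by
    rw [← map_evL, hk, map_evL, funext hms, evL_subst]
  obtain ⟨h, hh⟩ := brig (fun l => ρ' (ms l)) ⟨fun j hj => same_class h1 h2 hk (by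
      rw [hms, evS_sW (S := bS) hj]
      exact (tm.std (List.all_eq_true.mp bhS _ (List.getElem_mem hj))).2.isConj),
    fun r hr => (hw r).mpr (ora _ (List.all_eq_true.mp
      (by decide +kernel : bR.all (fun r => fixB img 8 bs (subst (sW bS) r)) = true) r hr)),
    fun r hr => mt (hw r).mp (hφ.mov (List.all_eq_true.mp
      (by decide +kernel : bN.all (fun r => movB img 5775 8 bs (subst (sW bS) r)) = true) r hr))⟩
  let S : Subgroup M := ρ'.eqLocus ((MulAut.conj h).toMonoidHom.comp ρ)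
  have hS : ∀ l, ms l ∈ S := fun l => by
    show ρ' (ms l) = h * ρ (ms l) * h⁻¹
    by_cases hl : l < 6
    · rw [hms, ← hh l hl]; group
    · have : ρ (ms l) = 1 := by
        rw [hms, evS, List.getD_eq_default _ _ (by show 6 ≤ l; omega), evL_nil]
      rw [this, (hk _).mpr this]; group
  have hle : Kb ≤ S.map ρ := Kb_eq ▸ gen_le fun u hu => by
    obtain ⟨v, _, e⟩ := List.any_eq_true.mp (List.all_eq_true.mp (by decide +kernel :
      HS.sK.all (fun u => ([[], [0,2,1,2,1,4,2,1,0,3,4,0,2,1,4,1,0,4,2,1,3,4,0,1,4,1,2,4,2,1,2,4,0,2,4,1,3,2,4,1,2,0,5,0,3,2,4,1], [1,4,2,3,0,5,0,2,1,4,2,3,1,4,2,0,4,2,1,2,4,2,1,4,1,0,4,3,1,2,4,0,1,4,1,2,0,4,3,0,1,2,4,1,2,1,2,0], [4,3,4,0,2,1,2,1,4,2,1,0,3,4,0,2,1,4,1,0,4,2,1,3,4,0,1,4,1,2,3,4,3,1,4,2,1,5,3,1,5,2,3,5,3,1,4], [4,1,3,5,3,2,5,1,3,5,1,2,4,1,3,4,3,2,1,4,1,0,4,3,1,2,4,0,1,4,1,2,0,4,3,0,1,2,4,1,2,1,2,0,4,3,4], [0,2,1,0,4,0,1,2,3,1,3,4,3,0,5,3,1,5,2,3,5,3,1,4], [4,1,3,5,3,2,5,1,3,5,0,3,4,3,1,3,2,1,0,4,0,1,2,0]]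 : List (List ℕ)).any fun v => eqB img 8 434321399574757888 bs (subst (sW bS) v) u) = true) u hu)
    exact ⟨evL ms v, evL_mem_of_letters fun l _ => hS l, by
      rw [map_evL, funext hms, evL_subst, tm.eq e]⟩
  refine ⟨h⁻¹, fun m => ?_⟩
  obtain ⟨s, hs, e⟩ := hle (h1 ▸ ⟨m, rfl⟩ : ρ m ∈ Kb)
  have e2 : ρ' s = ρ' m := by
    rw [← mul_inv_eq_one, ← map_inv, ← map_mul, hk, map_mul, map_inv, e, mul_inv_cancel]
  rw [← e2, ← e, inv_inv]
  exact hs

end Cfsg.H6.HNR
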