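import Cfsg.Agent.H6.HNR.S1

/-! The quotient map of the involution centraliser; the twisted multiplication. -/

set_option autoImplicit false
set_option maxRecDepth 100000

namespace Cfsg.H6.HNR

open G R

variable {C : Type*} [Group C]

/-- Conjugation on a normal subgroup. -/
def cjH (M : Subgroup C) [hM : M.Normal] (g : C) : M →* M where
  toFun m := ⟨g⁻¹ * m * g, hM.conj_mem' _ m.2 g⟩
  map_one' := Subtype.ext (by simp)
  map_mul' a b := Subtype.ext (by simp only [Subgroup.coe_mul]; group)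

theorem exists_pi {d : C} (hd1 : d ≠ 1) (hd : d * d = 1) (hc : ∀ x, Commute x d) (M : Subgroup C)
    [hn : M.Normal] (hM : M ≠ ⊤) (hout : Subgroup.centralizer (M : Set C) ≤ M)
    (hcov : IsNonsplitDoubleCover M Spor.HS) : ∃ π : C →* Grp, DC π d ∧
      ∀ L : Subgroup C, (∀ x, sc (π x) = 1 → x ∈ L ∨ x * d ∈ L) → d ∈ L := by
  obtain ⟨c2, ⟨e⟩, ns⟩ := hcov
  obtain ⟨ι, ι1, ι2⟩ := exists_ι
  have dM : d ∈ M := hout fun x _ => (hc x).eq
  have dZ : (⟨d, dM⟩ : M) ∈ Subgroup.center M :=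
    Subgroup.mem_center_iff.mpr fun x => Subtype.ext (hc x).eq
  have hZ : ∀ m : M, m ∈ Subgroup.center M ↔ (m : C) = 1 ∨ (m : C) = d := fun m => by
    refine ⟨fun h => by_contra fun hh => ?_, fun h => ?_⟩
    · rw [not_or] at hh
      obtain ⟨y, _, hy⟩ := (Nat.card_eq_two_iff' (1 : Subgroup.center M)).mp c2
      have a1 := hy ⟨m, h⟩ fun e => hh.1 (congrArg (fun x => (x.1 : C)) e)
      have a2 := hy ⟨_, dZ⟩ fun e => hd1 (congrArg (fun x => (x.1 : C)) e)
      exact hh.2 (congrArg (fun x => (x.1 : C)) (a1.trans a2.symm))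
    · rcases h with h | h
      · rw [show m = 1 from Subtype.ext h]; exact one_mem _
      · rw [show m = ⟨d, dM⟩ from Subtype.ext h]; exact dZ
  let ρ : M →* Grp := ι.comp (e.toMonoidHom.comp (QuotientGroup.mk' _))
  have ρ1 : ∀ m, ρ m = 1 ↔ (m : C) = 1 ∨ (m : C) = d := fun m => by
    rw [← hZ, ← QuotientGroup.eq_one_iff, ← e.map_eq_one_iff, ← map_eq_one_iff ι ι1]; rfl
  have ρ2 : ρ.range = Kb := by
    rw [← ι2]
    refine le_antisymm (fun _ ⟨m, h⟩ => ⟨_, h⟩) fun _ ⟨x, h⟩ => ?_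
    obtain ⟨q, rfl⟩ := e.surjective x
    obtain ⟨m, rfl⟩ := QuotientGroup.mk'_surjective _ q
    exact ⟨m, h⟩
  have ex : ∀ g, ∃ γ, ∀ m, ρ (cjH M g m) = γ⁻¹ * ρ m * γ := fun g =>
    exists_conj (ρ' := ρ.comp (cjH M g)) ρ2 (by
      rw [← ρ2]
      refine le_antisymm (fun _ ⟨m, h⟩ => ⟨_, h⟩) fun _ ⟨m, h⟩ => ⟨cjH M g⁻¹ m, ?_⟩
      rw [← h, MonoidHom.comp_apply]
      congr 1
      exact Subtype.ext (by show g⁻¹ * (g⁻¹⁻¹ * m * g⁻¹) * g = m; group)) fun m => by
      rw [MonoidHom.comp_apply, ρ1, ρ1]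
      show g⁻¹ * m * g = 1 ∨ g⁻¹ * m * g = d ↔ _
      refine or_congr (by simp [mul_assoc, inv_mul_eq_one]) ⟨fun h => ?_, fun h => ?_⟩
      · rw [← cj_of_commute (hc g⁻¹), ← h]; group
      · rw [h, cj_of_commute (hc g)]
  choose f hf using ex
  have uq : ∀ g γ, (∀ m, ρ (cjH M g m) = γ⁻¹ * ρ m * γ) → f g = γ := fun g γ h => by
    rw [← mul_inv_eq_one]
    refine cent_bot fun k hk => commute_of_cj ?_
    obtain ⟨m, rfl⟩ := (ρ2.ge hk :)
    rw [show (f g * γ⁻¹)⁻¹ * ρ m * (f g * γ⁻¹) = γ * ((f g)⁻¹ * ρ m * f g) * γ⁻¹ by group, ← hf, h]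
    group
  let π : C →* Grp := MonoidHom.mk' f fun a b => uq _ _ fun m => by
    rw [show cjH M (a * b) m = cjH M b (cjH M a m) from
      Subtype.ext (by show (a * b)⁻¹ * m * (a * b) = b⁻¹ * (a⁻¹ * m * a) * b; group), hf, hf]
    group
  have πM : ∀ m : M, π m = ρ m := fun m => uq _ _ fun x => by
    rw [← map_inv, ← map_mul, ← map_mul]; rfl
  have ker : ∀ g, π g = 1 → g = 1 ∨ g = d := fun g hg => by
    have a1 : ∀ m : M, Commute g m ∨ g⁻¹ * m * g = m * d := fun m => by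
      have := hf g m
      rw [show f g = 1 from hg, inv_one, one_mul, mul_one, eq_comm, ← inv_mul_eq_one, ← map_inv,
        ← map_mul, ρ1] at this
      rcases this with h | h
      · exact Or.inl (commute_of_cj (inv_mul_eq_one.mp h).symm)
      · exact Or.inr (inv_mul_eq_iff_eq_mul.mp h)
    let L : Subgroup M := (Subgroup.centralizer {g}).comap M.subtype
    have mL : ∀ m : M, m ∈ L ↔ Commute g m := fun m =>
      Subgroup.mem_centralizer_singleton_iff.trans ⟨fun h => h.symm, fun h => h.symm⟩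
    have a2 : ∀ m : M, ρ m ∈ L.map ρ → m ∈ L := by
      rintro m ⟨x, hx, e1⟩
      rw [← inv_mul_eq_one, ← map_inv, ← map_mul, ρ1] at e1
      rw [← L.mul_mem_cancel_left (L.inv_mem hx), mL]
      rcases e1 with h | h <;> rw [h]
      exacts [Commute.one_right g, hc g]
    have a3 := no2K ((L.map ρ).comap (π0.comp HS.K.subtype)) fun a b ha hb => by
      obtain ⟨u, hu⟩ := (ρ2.ge ⟨a, a.2, rfl⟩ :)
      obtain ⟨v, hv⟩ := (ρ2.ge ⟨b, b.2, rfl⟩ :)
      refine ⟨u * v, (mL _).mpr (commute_of_cj ?_), by rw [map_mul, map_mul, hu, hv]; rfl⟩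
      have b1 := (a1 u).resolve_left fun h => ha ⟨u, (mL u).mpr h, hu⟩
      have b2 := (a1 v).resolve_left fun h => hb ⟨v, (mL v).mpr h, hv⟩
      rw [Subgroup.coe_mul, show g⁻¹ * (u * v) * g = (g⁻¹ * u * g) * (g⁻¹ * v * g) by group, b1, b2,
        mul_assoc, ← mul_assoc d, ← (hc v).eq, mul_assoc, hd, mul_one]
    have a4 : ∀ m : M, Commute g m := fun m => (mL m).mp (a2 m (by
      obtain ⟨k, hk, e1⟩ := (ρ2.le ⟨m, rfl⟩ :)
      rw [← e1]
      exact (a3.ge (Subgroup.mem_top ⟨k, hk⟩) :)))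
    exact (hZ ⟨g, hout fun x hx => (a4 ⟨x, hx⟩).eq.symm⟩).mp
      (Subgroup.mem_center_iff.mpr fun x => Subtype.ext (a4 x).eq.symm)
  have inn : ∀ g, π g ∈ Kb → g ∈ M := fun g hg => by
    obtain ⟨m, hm⟩ := (ρ2.ge hg :)
    rw [← M.mul_mem_cancel_left (M.inv_mem m.2)]
    rcases ker ((m : C)⁻¹ * g) (by rw [map_mul, map_inv, πM, hm, inv_mul_cancel]) with h | h <;>
      rw [h]
    exacts [M.one_mem, dM]
  refine ⟨π, ⟨fun γ => ?_, hd, hc, ker, (πM ⟨d, dM⟩).trans ((ρ1 _).mpr (Or.inr rfl))⟩,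
    fun L hL => by_contra fun hdL => ns (L.comap M.subtype) ?_⟩
  · obtain ⟨g, hg⟩ : ∃ g, g ∉ M := by
      by_contra hc
      exact hM (eq_top_iff.mpr fun x _ => by_contra fun e => hc ⟨x, e⟩)
    by_cases hγ : γ ∈ Kb
    · obtain ⟨m, hm⟩ := (ρ2.ge hγ :)
      exact ⟨m, (πM m).trans hm⟩
    · obtain ⟨m, hm⟩ := (ρ2.ge ((Subgroup.mul_mem_iff_of_index_two Kb_index).mpr
        (iff_of_false hγ (mt (inn g⁻¹) fun h => hg (M.inv_mem_iff.mp h)))) :)
      exact ⟨m * g, by rw [map_mul, πM, hm, map_inv, inv_mul_cancel_right]⟩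
  · refine Subgroup.isComplement'_of_disjoint_and_mul_eq_univ ?_ ?_
    · rw [Subgroup.disjoint_def]
      intro a ha hb
      rcases (hZ a).mp ha with h | h
      · exact Subtype.ext h
      · exact absurd (h ▸ hb : d ∈ L) hdL
    · rw [Set.eq_univ_iff_forall]
      intro a
      rcases hL a (mem_Kb.mp (πM a ▸ ρ2.le ⟨a, rfl⟩)) with h | h
      · exact ⟨1, one_mem _, a, h, one_mul a⟩
      · exact ⟨_, dZ, a * ⟨d, dM⟩, h, Subtype.ext (by
          show d * (a * d) = a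
          rw [← mul_assoc, ← (hc a).eq, mul_assoc, hd, mul_one])⟩

/-- The data of a twisted multiplication. -/
structure TwD (C : Type*) [Group C] where
  o : C →* ℤˣ
  c : C
  cen : ∀ x, Commute x c
  sq : c * c = 1
  oc : o c = 1

namespace TwD

variable (D : TwD C)

/-- The group with the twisted multiplication. -/
@[ext] structure T (_ : TwD C) where
  val : C

/-- The correction term. -/
def e (s t : ℤˣ) : C := if s = 1 ∨ t = 1 then 1 else D.c

theorem oe (s t : ℤˣ) : D.o (D.e s t) = 1 := by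
  unfold e; split_ifs; exacts [map_one _, D.oc]

theorem ce (s t : ℤˣ) (x : C) : Commute x (D.e s t) := by
  unfold e; split_ifs; exacts [Commute.one_right x, D.cen x]

theorem coc (r s t : ℤˣ) : D.e r s * D.e (r * s) t = D.e s t * D.e r (s * t) := by
  rcases Int.units_eq_one_or r with rfl | rfl <;> rcases Int.units_eq_one_or s with rfl | rfl <;>
    rcases Int.units_eq_one_or t with rfl | rfl <;> simp [e]

instance instMul : Mul D.T := ⟨fun a b => ⟨a.val * b.val * D.e (D.o a.val) (D.o b.val)⟩⟩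

instance instOne : One D.T := ⟨⟨1⟩⟩

instance instInv : _root_.Inv D.T := ⟨fun a => ⟨a.val⁻¹ * D.e (D.o a.val) (D.o a.val)⟩⟩

theorem val_mul (a b : D.T) : (a * b).val = a.val * b.val * D.e (D.o a.val) (D.o b.val) := rfl

theorem val_one : (1 : D.T).val = 1 := rfl

theorem val_inv (a : D.T) : (a⁻¹).val = a.val⁻¹ * D.e (D.o a.val) (D.o a.val) := rfl

instance instGroup : Group D.T := Group.ofLeftAxioms
  (fun a b c => T.ext (by
    simp only [val_mul, map_mul, oe, mul_one]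
    rw [mul_assoc (a.val * b.val), ← (D.ce _ _ c.val).eq, mul_assoc, mul_assoc, mul_assoc, D.coc]
    group))
  (fun a => T.ext (by simp [val_mul, val_one, e]))
  (fun a => T.ext (by
    simp only [val_mul, val_inv, val_one, map_mul, oe, mul_one, map_inv]
    rw [mul_assoc a.val⁻¹, ← (D.ce _ _ a.val).eq, inv_mul_cancel_left]
    rcases Int.units_eq_one_or (D.o a.val) with h | h <;> simp [h, e, D.sq]))

/-- The number of corrections in a word. -/
def qW : List ℕ → ℕ
  | [] => 0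
  | l :: w => qW w + if sgn l = 1 ∨ evL sgn w = 1 then 0 else 1

theorem evL_T {xs : ℕ → C} (h : ∀ l, D.o (xs l) = sgn l) (w : List ℕ) :
    (evL (fun l => (⟨xs l⟩ : D.T)) w).val = evL xs w * D.c ^ qW w := by
  induction w with
  | nil => rw [evL_nil, evL_nil, val_one, qW, pow_zero, mul_one]
  | cons l w ih =>
    rw [evL_cons, evL_cons, val_mul, ih, map_mul, map_pow, D.oc, one_pow, mul_one, map_evL, funext h,
      h, qW, pow_add, e]
    split_ifs <;> group

end TwD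

end Cfsg.H6.HNR
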