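import Cfsg.Agent.H6.HNR.S2

/-! The involution centraliser is the presented group, up to a twist of the multiplication. -/

set_option autoImplicit false
set_option maxRecDepth 100000

namespace Cfsg.H6.HNR

open G R
open scoped commutatorElement

variable {C : Type*} [Group C] {π : C →* Grp} {d : C} {xs : ℕ → C}

section
variable (D : DC π d) (hx : ∀ l, π (xs l) = ev l)
include hx

theorem πw (w : List ℕ) : π (evL xs w) = evL ev w := by rw [map_evL, funext hx]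

theorem πsq {u : List ℕ} (h : fixB img 8 bs (u ++ u) = true) : π (evL xs u) * π (evL xs u) = 1 := by
  rw [πw hx, ← evL_append]; exact ora _ h

theorem πcm {u v : List ℕ} (h : eqB img 8 434321399574757888 bs (u ++ v) (v ++ u) = true) :
    Commute (π (evL xs u)) (π (evL xs v)) := by
  have := tm.eq h
  rwa [evL_append, evL_append, ← πw hx, ← πw hx] at this

include D

theorem sqc {u w g : List ℕ} (h : (fixB img 8 bs (u ++ u) &&
    eqB img 8 434321399574757888 bs (invW 434321399574757888 g ++ u ++ g) w) = true) :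
    evL xs w * evL xs w = evL xs u * evL xs u := by
  rw [Bool.and_eq_true] at h
  refine D.sq_cj (πsq hx h.1) ?_
  rw [πw hx, πw hx, ← tm.eq h.2, evL_append, evL_append, evL_invW hev]
  exact isConj_cj _ _

theorem sev {x y z : List ℕ} (h : (fixB img 8 bs (x ++ x) && fixB img 8 bs (y ++ y) &&
    fixB img 8 bs (z ++ z) && eqB img 8 434321399574757888 bs (x ++ y) (y ++ x) &&
    eqB img 8 434321399574757888 bs (y ++ z) (z ++ y)) = true) :
    evL xs (x ++ (y ++ z)) * evL xs (x ++ (y ++ z)) = evL xs x * evL xs x * (evL xs y * evL xs y) *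
      (evL xs z * evL xs z) * (evL xs (x ++ y) * evL xs (x ++ y)) *
      (evL xs (x ++ z) * evL xs (x ++ z)) * (evL xs (y ++ z) * evL xs (y ++ z)) := by
  simp only [Bool.and_eq_true] at h
  simp only [evL_append]
  exact D.seven (πsq hx h.1.1.1.1) (πsq hx h.1.1.1.2) (πsq hx h.1.1.2) (πcm hx h.1.2) (πcm hx h.2)

theorem dl2 {x u v w : List ℕ} (h : (fixB img 8 bs (x ++ x) && fixB img 8 bs (u ++ u) &&
    fixB img 8 bs (v ++ v) && eqB img 8 434321399574757888 bs (x ++ u) (u ++ x) &&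
    eqB img 8 434321399574757888 bs w (u ++ v)) = true) :
    (evL xs x)⁻¹ * (evL xs w)⁻¹ * evL xs x * evL xs w =
      evL xs x * evL xs x * (evL xs u * evL xs u) * (evL xs (x ++ u) * evL xs (x ++ u)) *
      (evL xs x * evL xs x * (evL xs v * evL xs v) * (evL xs (x ++ v) * evL xs (x ++ v))) := by
  simp only [Bool.and_eq_true] at h
  have e := D.comm_eq (x := (evL xs x)⁻¹) (x' := (evL xs x)⁻¹) (y := (evL xs w)⁻¹)
    (y' := (evL xs u * evL xs v)⁻¹) rfl (by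
      rw [map_inv, map_inv, ← evL_append, πw hx, πw hx, tm.eq h.2])
  simp only [commutatorElement_def, inv_inv] at e
  rw [e, D.comm_mul (πcm hx h.1.2), D.comm_sq (πsq hx h.1.1.1.1) (πsq hx h.1.1.1.2),
    D.comm_sq (πsq hx h.1.1.1.1) (πsq hx h.1.1.2), evL_append, evL_append]

theorem sg_a : evL xs [7,3,3,3,6] * evL xs [7,3,3,3,6] = 1 := by
  have h := sev D hx (x := [7,3,3,3,6]) (y := [7,5,6,6,6,5,6]) (z := [5,7,5,7,7,7,5,6,5]) (by decide +kernel)
  rw [(sqc D hx (u := [7,3,3,3,6]) (w := [7,3,3,3,6] ++ ([7,5,6,6,6,5,6] ++ [5,7,5,7,7,7,5,6,5])) (g := [1,4,5,3,6]) (by decide +kernel)),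
    (sqc D hx (u := [7,3,3,3,6]) (w := [7,5,6,6,6,5,6]) (g := [1,4,5,6]) (by decide +kernel)),
    (sqc D hx (u := [7,3,3,3,6]) (w := [5,7,5,7,7,7,5,6,5]) (g := [1,7,5,3]) (by decide +kernel)),
    (sqc D hx (u := [7,3,3,3,6]) (w := [7,3,3,3,6] ++ [7,5,6,6,6,5,6]) (g := [3,6,5,6,6,3,7,4]) (by decide +kernel)),
    (sqc D hx (u := [7,3,3,3,6]) (w := [7,3,3,3,6] ++ [5,7,5,7,7,7,5,6,5]) (g := [1,6,6,5,3,7,5,7]) (by decide +kernel)),
    (sqc D hx (u := [7,3,3,3,6]) (w := [7,5,6,6,6,5,6] ++ [5,7,5,7,7,7,5,6,5]) (g := [1,7,5,3,6,6,5,7,7]) (by decide +kernel))] at h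
  have a := (D.cenk (z := evL xs [7,3,3,3,6] * evL xs [7,3,3,3,6]) (by rw [map_mul, πsq hx (by decide +kernel)])).1
  generalize evL xs [7,3,3,3,6] * evL xs [7,3,3,3,6] = a' at h a
  rw [h, a, one_mul, a, one_mul, a]

theorem sg_e : evL xs [7,3,3,3,6,5] * evL xs [7,3,3,3,6,5] = evL xs [5] * evL xs [5] := by
  have h := sev D hx (x := [7,3,3,3,6]) (y := [5]) (z := [6,3,3,3,7]) (by decide +kernel)
  rw [(sqc D hx (u := [7,3,3,3,6,5]) (w := [7,3,3,3,6] ++ ([5] ++ [6,3,3,3,7])) (g := [3,3,5,6,6,3,3]) (by decide +kernel)),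
    (sqc D hx (u := [7,3,3,3,6]) (w := [6,3,3,3,7]) (g := [7,7]) (by decide +kernel)),
    (sqc D hx (u := [7,3,3,3,6,5]) (w := [7,3,3,3,6] ++ [5]) (g := []) (by decide +kernel)),
    (sqc D hx (u := [7,3,3,3,6]) (w := [7,3,3,3,6] ++ [6,3,3,3,7]) (g := [6,6]) (by decide +kernel)),
    (sqc D hx (u := [7,3,3,3,6,5]) (w := [5] ++ [6,3,3,3,7]) (g := [4,6,4]) (by decide +kernel))] at h
  have a := (D.cenk (z := evL xs [7,3,3,3,6,5] * evL xs [7,3,3,3,6,5]) (by rw [map_mul, πsq hx (by decide +kernel)])).1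
  rw [sg_a D hx] at h
  generalize evL xs [7,3,3,3,6,5] * evL xs [7,3,3,3,6,5] = a' at h a
  generalize evL xs [5] * evL xs [5] = c at h
  simp only [one_mul, mul_one, mul_assoc, a] at h
  exact h

theorem sg_3 : (evL xs [1])⁻¹ * (evL xs [3,2,4,1,3])⁻¹ * evL xs [1] * evL xs [3,2,4,1,3] = 1 := by
  rw [dl2 D hx (x := [1]) (u := [5,3,6,5,7,5,4,5,3,6,5,4,6,5,4]) (v := [5,3,6,5,7,5,4,5,3,3,5,4,5,3]) (w := [3,2,4,1,3]) (by decide +kernel),
    (sqc D hx (u := [1]) (w := [5,3,6,5,7,5,4,5,3,6,5,4,6,5,4]) (g := [3,3,3,7,7,3,3,6,6]) (by decide +kernel)),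
    (sqc D hx (u := [1]) (w := [5,3,6,5,7,5,4,5,3,3,5,4,5,3]) (g := [3,6,3,7,3,6,4,4]) (by decide +kernel)),
    (sqc D hx (u := [7,3,3,3,6]) (w := [1] ++ [5,3,6,5,7,5,4,5,3,6,5,4,6,5,4]) (g := [3,6,6,3]) (by decide +kernel)),
    (sqc D hx (u := [7,3,3,3,6]) (w := [1] ++ [5,3,6,5,7,5,4,5,3,3,5,4,5,3]) (g := [6,3,7,3,6,6,3]) (by decide +kernel)), sg_a D hx,
    (D.cenk (z := evL xs [1] * evL xs [1]) (by rw [map_mul, πsq hx (by decide +kernel)])).1]
  simp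

theorem sg_9 : (evL xs [5])⁻¹ * (evL xs [3,1,3,1,3,3,1,4])⁻¹ * evL xs [5] * evL xs [3,1,3,1,3,3,1,4] =
    evL xs [1] * evL xs [1] := by
  rw [dl2 D hx (x := [5]) (u := [1,6,3,7,4]) (v := [3,7,7,7,4]) (w := [3,1,3,1,3,3,1,4]) (by decide +kernel),
    (sqc D hx (u := [1]) (w := [1,6,3,7,4]) (g := [7,4]) (by decide +kernel)),
    (sqc D hx (u := [7,3,3,3,6]) (w := [3,7,7,7,4]) (g := [1,4,4]) (by decide +kernel)),
    (sqc D hx (u := [7,3,3,3,6,5]) (w := [5] ++ [1,6,3,7,4]) (g := [1,7,4,5,3,3,3]) (by decide +kernel)),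
    (sqc D hx (u := [7,3,3,3,6,5]) (w := [5] ++ [3,7,7,7,4]) (g := [1,4,6,4]) (by decide +kernel)), sg_a D hx, sg_e D hx]
  obtain ⟨a1, a2⟩ := D.cenk (z := evL xs [5] * evL xs [5]) (by rw [map_mul, πsq hx (by decide +kernel)])
  generalize evL xs [5] * evL xs [5] = c at a1 a2
  generalize evL xs [1] * evL xs [1] = b
  rw [mul_one, a1, mul_one, ← (a2 b).eq, mul_assoc, a1, mul_one]

theorem sg_1 : evL xs [3,3,3] * evL xs [3,3,3] = 1 := by
  rw [(sqc D hx (u := [7,3,3,3,6]) (w := [3,3,3]) (g := [7]) (by decide +kernel)), sg_a D hx]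

theorem sg_5 : evL xs [1,3,1,3,1,3,1,3] * evL xs [1,3,1,3,1,3,1,3] = 1 := by
  rw [(sqc D hx (u := [7,3,3,3,6]) (w := [1,3,1,3,1,3,1,3]) (g := [3,6,4,4]) (by decide +kernel)), sg_a D hx]

theorem sg_6 : evL xs [1,3,1,3,3,3,1,3,1,3,3,3] * evL xs [1,3,1,3,3,3,1,3,1,3,3,3] = 1 := by
  rw [(sqc D hx (u := [7,3,3,3,6]) (w := [1,3,1,3,3,3,1,3,1,3,3,3]) (g := [3,3,3,6]) (by decide +kernel)), sg_a D hx]

theorem sg_8 : evL xs [5,1] * evL xs [5,1] = evL xs [5] * evL xs [5] :=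
  (sqc D hx (u := [5]) (w := [5,1]) (g := [3,5,3,3,7,3,3,7,4,4]) (by decide +kernel))

end

/-- The letters from three elements. -/
def mkX (X Y Z : C) : ℕ → C
  | 1 => X
  | 2 => X⁻¹
  | 3 => Y
  | 4 => Y⁻¹
  | 5 => Z
  | 6 => X⁻¹ * Y * X
  | 7 => (X⁻¹ * Y * X)⁻¹
  | _ => 1

theorem mkX_big (X Y Z : C) {l : ℕ} (h : 8 ≤ l) : mkX X Y Z l = 1 := by
  obtain ⟨k, rfl⟩ := Nat.exists_eq_add_of_le' h
  rfl

theorem mkX_map {X Y Z : C} (h1 : π X = ev 1) (h3 : π Y = ev 3) (h5 : π Z = ev 5) (l : ℕ) :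
    π (mkX X Y Z l) = ev l := by
  have i2 : ev 2 = (ev 1)⁻¹ := hev.inv 1
  have i4 : ev 4 = (ev 3)⁻¹ := hev.inv 3
  have i7 : ev 7 = (ev 6)⁻¹ := hev.inv 6
  have i6 : ev 6 = (ev 1)⁻¹ * ev 3 * ev 1 := by
    have := hR [7, 2, 3, 1] (by decide)
    simp only [evL, List.map, List.prod_cons, List.prod_nil, mul_one, i7, i2] at this
    rw [mul_assoc, inv_mul_eq_one.mp this]
  by_cases h : 8 ≤ l
  · rw [mkX_big _ _ _ h, map_one, hev.eq_one (m := 8) (by norm_num) h]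
  · have : l < 8 := by omega
    interval_cases l <;> simp [mkX, h1, h3, h5, hev.zero, i2, i4, i6, i7]

theorem evL_cen (hc : ∀ x, Commute x d) (xs : ℕ → C) (e : ℕ → ℕ) (w : List ℕ) :
    evL (fun l => xs l * d ^ e l) w = evL xs w * d ^ (w.map e).sum := by
  induction w with
  | nil => simp [evL]
  | cons l w ih =>
    rw [evL_cons, evL_cons, ih, List.map_cons, List.sum_cons, pow_add, mul_assoc,
      ← mul_assoc (d ^ e l), ← ((hc (evL xs w)).pow_right _).eq]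
    group

/-- The exponents of the central element. -/
def exX (a b l : ℕ) : ℕ := if l = 1 ∨ l = 2 then a else if l = 3 ∨ l = 4 ∨ l = 6 ∨ l = 7 then b else 0

theorem mkX_tw (D : DC π d) (X Y Z : C) (a b : ℕ) (w : List ℕ) :
    evL (mkX (X * d ^ a) (Y * d ^ b) Z) w = evL (mkX X Y Z) w * d ^ (w.map (exX a b)).sum := by
  rw [← evL_cen D.cen]
  congr 1
  funext l
  have k : ∀ (x : C) (n : ℕ), (x * d ^ n)⁻¹ = x⁻¹ * d ^ n := fun x n => by
    rw [mul_inv_rev, ← inv_pow, inv_eq_of_mul_eq_one_right D.sq, ((D.cen _).pow_right n).eq]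
  have k2 : (X * d ^ a)⁻¹ * (Y * d ^ b) * (X * d ^ a) = X⁻¹ * Y * X * d ^ b := by
    rw [((D.cen X).pow_right a).eq, show (d ^ a * X)⁻¹ * (Y * d ^ b) * (d ^ a * X) =
      X⁻¹ * ((d ^ a)⁻¹ * (Y * d ^ b) * d ^ a) * X by group,
      cj_of_commute ((D.cen _).pow_right a).symm, mul_assoc, mul_assoc, ← ((D.cen X).pow_right b).eq]
    group
  by_cases h : 8 ≤ l
  · rw [mkX_big _ _ _ h, mkX_big _ _ _ h, exX, if_neg (by omega), if_neg (by omega)]; simp
  · have : l < 8 := by omega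
    interval_cases l <;> simp only [mkX, k2] <;> (try simp only [k]) <;> simp [exX]

theorem pow_par (D : DC π d) (n : ℕ) : d ^ n = d ^ (n % 2) := by
  conv_lhs => rw [← Nat.div_add_mod n 2, pow_add, pow_mul, pow_two, D.sq, one_pow, one_mul]

theorem exists_lifts (D : DC π d) : ∃ X Y Z, π X = ev 1 ∧ π Y = ev 3 ∧ π Z = ev 5 ∧
    evL (mkX X Y Z) [2,3,3,1,3,3,3,2,3,3,1,3,3,3,2,3,3,1,3,3,3] = 1 ∧ evL (mkX X Y Z) [5,4,2,4,2,4,4,4,5,3,3,3,1,3,1,3,1,4,2,4,2,4,4,4,5,3,3,3,1,3,1,3,1,4,2,4,2,4,4,4,5,3,3,3,1,3,1,3,1] = 1 := by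
  obtain ⟨X, h1⟩ := D.surj (ev 1)
  obtain ⟨Y, h3⟩ := D.surj (ev 3)
  obtain ⟨Z, h5⟩ := D.surj (ev 5)
  have hx := mkX_map h1 h3 h5
  have two : ∀ x y, π x = π y → ∃ n, x * d ^ (n % 2) = y := fun x y e => by
    rcases D.eq e.symm with h | h
    exacts [⟨0, by simp [h]⟩, ⟨1, by simp [h]⟩]
  obtain ⟨b, hb⟩ := two (evL (mkX X Y Z) [2,3,3,1,3,3,3,2,3,3,1,3,3,3,2,3,3,1,3,3,3]) 1 (by rw [πw hx, map_one]; exact hR _ (by decide))
  obtain ⟨a, ha⟩ := two (evL (mkX X Y Z) [5,4,2,4,2,4,4,4,5,3,3,3,1,3,1,3,1,4,2,4,2,4,4,4,5,3,3,3,1,3,1,3,1,4,2,4,2,4,4,4,5,3,3,3,1,3,1,3,1]) 1 (by rw [πw hx, map_one]; exact hR _ (by decide))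
  refine ⟨X * d ^ a, Y * d ^ b, Z, by rw [map_mul, map_pow, D.map, one_pow, mul_one, h1],
    by rw [map_mul, map_pow, D.map, one_pow, mul_one, h3], h5, ?_, ?_⟩
  · rw [mkX_tw D, pow_par D, show (List.map (exX a b) [2,3,3,1,3,3,3,2,3,3,1,3,3,3,2,3,3,1,3,3,3]).sum % 2 = b % 2 by simp [exX]; omega, hb]
  · rw [mkX_tw D, pow_par D, show (List.map (exX a b) [5,4,2,4,2,4,4,4,5,3,3,3,1,3,1,3,1,4,2,4,2,4,4,4,5,3,3,3,1,3,1,3,1,4,2,4,2,4,4,4,5,3,3,3,1,3,1,3,1]).sum % 2 = a % 2 by simp [exX]; omega, ha]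

/-- Elements of the double cover. -/
def Inn (p : HN.H.Grp) : Prop := sc (π0 p) = 1

/-- The centraliser of `d` is the presented group, with products of two outer elements corrected
by `c`. -/
structure HF {G : Type*} [Group G] (d c : G) (F : HN.H.Grp → G) : Prop where
  mul : ∀ a b, Inn a ∨ Inn b → F (a * b) = F a * F b
  out : ∀ a b, ¬ Inn a → ¬ Inn b → F (a * b) = F a * F b * c
  inj : Function.Injective F
  mem : ∀ a, Commute (F a) d
  surj : ∀ x, Commute x d → ∃ a, F a = x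
  base : F τ = d
  cc : c = 1 ∨ c = d

theorem exists_HF0 (D : DC π d) (hd : d ≠ 1)
    (ns : ∀ L : Subgroup C, (∀ x, sc (π x) = 1 → x ∈ L ∨ x * d ∈ L) → d ∈ L) :
    ∃ c F, HF d c F := by
  obtain ⟨X, Y, Z, h1, h3, h5, r4, r10⟩ := exists_lifts D
  have hx := mkX_map h1 h3 h5
  have z2 : π (Z * Z) = 1 := by rw [map_mul, h5]; simpa [evL] using hR [5, 5] (by decide)
  have x2 : π (X * X) = 1 := by rw [map_mul, h1]; simpa [evL] using hR [1, 1] (by decide)
  obtain ⟨c1, c2⟩ := D.cenk z2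
  obtain ⟨b1, b2⟩ := D.cenk x2
  let T : TwD C := ⟨sc.comp π, Z * Z, c2, c1, by rw [MonoidHom.comp_apply, z2, map_one]⟩
  have ho : ∀ l, T.o (mkX X Y Z l) = sgn l := fun l => by
    show sc (π _) = _
    rw [hx, ← evL_singleton ev, sc_w, evL_singleton]
  have par : ∀ n, (Z * Z) ^ n = (Z * Z) ^ (n % 2) := fun n => by
    conv_lhs => rw [← Nat.div_add_mod n 2, pow_add, pow_mul, pow_two, c1, one_pow, one_mul]
  have key : ∀ w, evL (mkX X Y Z) w = (Z * Z) ^ (TwD.qW w % 2) →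
      evL (fun l => (⟨mkX X Y Z l⟩ : T.T)) w = 1 := fun w h => TwD.T.ext (by
    rw [T.evL_T ho, h, TwD.val_one]
    show _ * (Z * Z) ^ _ = 1
    rw [← par, ← pow_add, par, ← two_mul, Nat.mul_mod_right, pow_zero])
  have k0 : ∀ w, TwD.qW w % 2 = 0 → evL (mkX X Y Z) w = 1 →
      evL (fun l => (⟨mkX X Y Z l⟩ : T.T)) w = 1 := fun w h h' => key w (by rw [h, h', pow_zero])
  have k1 : ∀ w, TwD.qW w % 2 = 1 → evL (mkX X Y Z) w = Z * Z →
      evL (fun l => (⟨mkX X Y Z l⟩ : T.T)) w = 1 := fun w h h' => key w (by rw [h, h', pow_one])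
  have good : Good (fun l => (⟨mkX X Y Z l⟩ : T.T)) 434321399574757888 :=
    good_of_rels (m := 8) rfl (fun l h => TwD.T.ext (mkX_big _ _ _ h)) (by norm_num) (by
      intro r hr
      have : r ∈ [[0, 0], [2, 1], [1, 2], [4, 3], [3, 4], [5, 5], [7, 6], [6, 7]] := hr
      simp only [List.mem_cons, List.not_mem_nil, or_false] at this
      rcases this with rfl | rfl | rfl | rfl | rfl | rfl | rfl | rfl
      all_goals first
        | exact k0 _ (by decide +kernel) (by simp [evL, mkX, mul_assoc])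
        | exact k1 _ (by decide +kernel) (by simp [evL, mkX]))
  have rels : Rels (fun l => (⟨mkX X Y Z l⟩ : T.T)) HN.H.R := by
    intro r hr
    simp only [HN.H.R, List.mem_cons, List.not_mem_nil, or_false] at hr
    rcases hr with rfl | rfl | rfl | rfl | rfl | rfl | rfl | rfl | rfl | rfl | rfl
    · exact k0 _ (by decide +kernel) ((evL_append _ _ _).trans (sg_1 D hx))
    · refine k0 _ (by decide +kernel) ?_
      have : evL (mkX X Y Z) [1,1,3,1,1,4] = X * X * (Y * (X * X)) * Y⁻¹ := by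
        simp [evL, mkX, mul_assoc]
      rw [this, (b2 Y).eq, ← mul_assoc, b1]; group
    · refine k0 _ (by decide +kernel) ((?_ : _ = _).trans (sg_3 D hx))
      have k : X * Y * X⁻¹ = X⁻¹ * Y * X := by
        rw [show X * Y * X⁻¹ = X⁻¹ * (X * X * Y) * X⁻¹ by group, ← (b2 Y).eq]; group
      have : evL (mkX X Y Z) [2,4,1,3,2,4,1,3,2,4,1,3] =
          X⁻¹ * Y⁻¹ * (X * Y * X⁻¹) * (Y⁻¹ * X * Y * X⁻¹ * Y⁻¹ * X * Y) := by
        simp [evL, mkX, mul_assoc]
      rw [this, k]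
      simp [evL, mkX, mul_assoc]
    · exact k0 _ (by decide +kernel) r4
    · exact k0 _ (by decide +kernel) ((evL_append _ _ _).trans (sg_5 D hx))
    · exact k0 _ (by decide +kernel) ((evL_append _ _ _).trans (sg_6 D hx))
    · exact k1 _ (by decide +kernel) (by simp [evL, mkX])
    · exact k1 _ (by decide +kernel) (((evL_append _ _ _).trans (sg_8 D hx)).trans (by simp [evL, mkX]))
    · refine k1 _ (by decide +kernel) ?_
      have : evL (mkX X Y Z) [5,3,2,4,4,2,4,2,4,5,3,1,3,1,3,3,1,4,2,2] = Z * Z * ((evL (mkX X Y Z) [5])⁻¹ *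
          (evL (mkX X Y Z) [3,1,3,1,3,3,1,4])⁻¹ * evL (mkX X Y Z) [5] *
          evL (mkX X Y Z) [3,1,3,1,3,3,1,4]) * (evL (mkX X Y Z) [1] * evL (mkX X Y Z) [1])⁻¹ := by
        simp [evL, mkX, mul_assoc]
      rw [this, sg_9 D hx, mul_inv_cancel_right]
    · exact k0 _ (by decide +kernel) r10
    · exact k0 _ (by decide +kernel) (by simp [evL, mkX, mul_assoc])
  let πT : T.T →* Grp := MonoidHom.mk' (fun a => π a.val) fun a b => by
    rw [TwD.val_mul, map_mul, map_mul, TwD.e]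
    split_ifs
    · rw [map_one, mul_one]
    · rw [show π T.c = 1 from z2, mul_one]
  have inn : ∀ a b : T.T, sc (πT a) = 1 ∨ sc (πT b) = 1 → (a * b).val = a.val * b.val :=
    fun a b h => by rw [TwD.val_mul, TwD.e, if_pos (show T.o a.val = 1 ∨ T.o b.val = 1 from h), mul_one]
  have xx : (evL (fun l => (⟨mkX X Y Z l⟩ : T.T)) [1, 1]).val = X * X := by
    rw [T.evL_T ho, show TwD.qW [1, 1] = 0 by decide +kernel]; simp [evL, mkX]
  rcases D.ker _ x2 with hb | hb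
  · exfalso
    obtain ⟨ψ, hψ⟩ := lift good (rels_app rels (Rels.cons (TwD.T.ext (xx.trans hb)) (by simp [Rels])))
    have sec : ∀ γ, πT (ψ γ) = γ := fun γ => by
      obtain ⟨w, rfl⟩ := exists_word hev (X := G.X) (x := γ) (hX ▸ Subgroup.mem_top γ)
      rw [map_evL, map_evL]
      exact evL_congr fun l _ => by rw [hψ]; exact hx l
    let L : Subgroup C :=
      { carrier := {x | ∃ γ, sc γ = 1 ∧ (ψ γ).val = x}
        one_mem' := ⟨1, map_one _, by rw [map_one]; rfl⟩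
        mul_mem' := by
          rintro _ _ ⟨a, ha, rfl⟩ ⟨b, hb, rfl⟩
          exact ⟨a * b, by rw [map_mul, ha, hb, mul_one], by
            rw [map_mul, inn _ _ (Or.inl (by rw [sec, ha]))]⟩
        inv_mem' := by
          rintro _ ⟨a, ha, rfl⟩
          refine ⟨a⁻¹, by rw [map_inv, ha, inv_one], eq_inv_of_mul_eq_one_left ?_⟩
          rw [← inn _ _ (Or.inr (by rw [sec, ha])), ← map_mul, inv_mul_cancel, map_one]; rfl }
    obtain ⟨γ, _, e⟩ := ns L fun x h => by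
      rcases D.eq (sec (π x)) with e | e
      exacts [Or.inl ⟨_, h, e⟩, Or.inr ⟨_, h, e⟩]
    have : γ = 1 := by rw [← sec γ]; exact (congrArg π e).trans D.map
    rw [this, map_one] at e
    exact hd e.symm
  · obtain ⟨ψ, hψ⟩ := HN.H.lift good rels
    have sec : ∀ p, πT (ψ p) = π0 p := fun p => by
      obtain ⟨w, rfl⟩ := exists_word HN.H.hev (X := HN.H.X) (x := p) (HN.H.hX ▸ Subgroup.mem_top p)
      rw [hπw, map_evL, map_evL]
      exact evL_congr fun l _ => by rw [hψ]; exact hx l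
    have base : (ψ τ).val = d := by rw [τ, map_evL, funext hψ, xx, hb]
    have iτ : Inn τ := by rw [Inn, τ_map, map_one]
    have mul : ∀ a b, Inn a ∨ Inn b → (ψ (a * b)).val = (ψ a).val * (ψ b).val := fun a b h => by
      rw [map_mul, inn _ _ (by rw [sec, sec]; exact h)]
    refine ⟨Z * Z, fun p => (ψ p).val, mul, fun a b ha hb => ?_, fun a b e => ?_, fun a => D.cen _,
      fun x _ => ?_, base, D.ker _ z2⟩
    · rw [map_mul, TwD.val_mul, TwD.e, if_neg]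
      show ¬ (sc (πT (ψ a)) = 1 ∨ sc (πT (ψ b)) = 1)
      rw [sec, sec]
      exact not_or.mpr ⟨ha, hb⟩
    · have e1 : ψ a = ψ b := TwD.T.ext e
      rcases dc.eq ((sec a).symm.trans (e1 ▸ sec b)) with h | h
      · exact h
      · rw [h, mul _ _ (Or.inr iτ), base] at e
        exact absurd (mul_eq_left.mp e) hd
    · obtain ⟨p, hp⟩ := surj (π x)
      rcases D.eq (hp.symm.trans (sec p).symm) with e | e
      exacts [⟨p, e.symm⟩, ⟨p * τ, by rw [mul _ _ (Or.inr iτ), base]; exact e.symm⟩]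

theorem exists_HF {G : Type*} [Group G] (t : G) (ht : orderOf t = 2)
    (M : Subgroup (Subgroup.centralizer ({t} : Set G))) [M.Normal] (hM : M.index = 2)
    (hout : Subgroup.centralizer (M : Set (Subgroup.centralizer ({t} : Set G))) ≤ M)
    (hcov : IsNonsplitDoubleCover M Spor.HS) : ∃ c F, HF t c F := by
  have h1 : t ≠ 1 := fun e => by rw [e, orderOf_one] at ht; omega
  have h2 : t * t = 1 := by rw [← pow_two, ← ht, pow_orderOf_eq_one]
  have h3 : t ∈ Subgroup.centralizer ({t} : Set G) := Subgroup.mem_centralizer_singleton_iff.mpr rfl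
  have h4 : (⟨t, h3⟩ : Subgroup.centralizer ({t} : Set G)) ≠ 1 := fun e => h1 (congrArg Subtype.val e)
  obtain ⟨π, D, ns⟩ := exists_pi (d := ⟨t, h3⟩) h4 (Subtype.ext h2)
    (fun x => Subtype.ext (Subgroup.mem_centralizer_singleton_iff.mp x.2)) M
    (fun e => by rw [e, Subgroup.index_top] at hM; omega) hout hcov
  obtain ⟨c, F, h⟩ := exists_HF0 D h4 ns
  refine ⟨c, fun p => F p, fun a b e => by rw [h.mul a b e]; rfl, fun a b e e' => by
    rw [h.out a b e e']; rfl, fun a b e => h.inj (Subtype.ext e),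
    fun a => Subgroup.mem_centralizer_singleton_iff.mp (F a).2, fun x hx => ?_, by rw [h.base], ?_⟩
  · obtain ⟨a, ha⟩ := h.surj ⟨x, Subgroup.mem_centralizer_singleton_iff.mpr hx⟩ (D.cen _)
    exact ⟨a, by rw [ha]⟩
  · rcases h.cc with e | e <;> rw [e]
    exacts [Or.inl rfl, Or.inr rfl]

end Cfsg.H6.HNR
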