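import Cfsg.Agent.H6.HNR.P1
import Cfsg.Agent.H5.ZStar

/-! Fusion of the central involution into the centraliser. -/

set_option autoImplicit false
set_option maxRecDepth 100000

namespace Cfsg.H6.HNR

open G R

variable {G : Type*} [Group G] {d c : G} {F : P → G}

namespace HF

variable (h : HF d c F)
include h

theorem one : F 1 = 1 := by
  have := h.mul 1 1 (Or.inl inn_one)
  rwa [mul_one, eq_comm, mul_eq_left] at this

theorem mτ (a : P) : F (a * τ) = F a * d := by rw [h.mul _ _ (Or.inr inn_τ), h.base]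

theorem d2 : d * d = 1 := by rw [← h.one, ← τ_sq, h.mτ, h.base]

theorem d1 : d ≠ 1 := fun e => τ_ne (h.inj (by rw [h.base, h.one, e]))

theorem cj (a k : P) : F (k⁻¹ * a * k) = (F k)⁻¹ * F a * F k := by
  have e : k * (k⁻¹ * a * k) = a * k := by group
  have i := inn_conj (isConj_cj a k)
  rw [mul_assoc (F k)⁻¹, eq_inv_mul_iff_mul_eq]
  by_cases h1 : Inn k ∨ Inn a
  · rw [← h.mul _ _ (h1.imp id i.mp), e, h.mul _ _ h1.symm]
  · rw [not_or] at h1
    have := h.out _ _ h1.1 (mt i.mpr h1.2)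
    rw [e, h.out _ _ h1.2 h1.1] at this
    exact (mul_right_cancel this).symm

theorem comm {a b : P} : Commute (F a) (F b) ↔ Commute a b :=
  ⟨fun e => (commute_of_cj (h.inj ((h.cj a b).trans (cj_of_commute e.symm)))).symm,
    fun e => (commute_of_cj ((h.cj a b).symm.trans (congrArg F (cj_of_commute e.symm)))).symm⟩

theorem conj {a b : P} (e : IsConj a b) : IsConj (F a) (F b) := by
  obtain ⟨k, rfl⟩ := IsConj.exists_cj e
  rw [h.cj]; exact isConj_cj _ _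

theorem sq_inn {a : P} (ha : Inn a) (e : F a * F a = 1) : a * a = 1 :=
  h.inj (by rw [h.mul _ _ (Or.inl ha), e, h.one])

theorem sq_out {a : P} (ha : ¬ Inn a) (e : F a * F a = 1) :
    c = 1 ∧ (IsConj zz a ∨ IsConj ee a) := by
  have a1 := h.out _ _ ha ha
  rw [e, one_mul] at a1
  have a2 : IsConj zz a ∨ IsConj ee a := cls_out (by
    rw [← map_mul]
    rcases h.cc with e | e
    · rw [h.inj (a1.trans (e.trans h.one.symm)), map_one]
    · rw [h.inj (a1.trans (e.trans h.base.symm)), τ_map]) ha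
  refine ⟨?_, a2⟩
  rw [← a1, a2.elim (sq_of_isConj zz_sq) (sq_of_isConj ee_sq), h.one]

theorem stepA [Finite G] [IsSimpleGroup G] (hc : d ∉ Subgroup.center G) :
    IsConj d (F j0) ∨ IsConj d (F (j0 * τ)) := by
  have fin : ∀ q, Inn q → q ≠ τ → IsConj d (F q) → IsConj d (F j0) ∨ IsConj d (F (j0 * τ)) := by
    intro q h1 h2 h3
    rcases cls_inn (h.sq_inn h1 (sq_of_isConj h.d2 h3)) h1 with e | e | e | e
    · rw [e, h.one, isConj_one_left] at h3
      exact absurd h3 h.d1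
    · exact absurd e h2
    · exact Or.inl (h3.trans (h.conj e).symm)
    · exact Or.inr (h3.trans (h.conj e).symm)
  obtain ⟨g, g1, g2⟩ := H5.exists_commute_conj_ne
    (orderOf_eq_prime (by rw [pow_two, h.d2]) h.d1) hc
  obtain ⟨p, hp⟩ := h.surj _ g1.symm
  have p1 : IsConj d (F p) := isConj_iff.mpr ⟨g, hp.symm⟩
  by_cases hi : Inn p
  · exact fin p hi (fun e => g2 (by rw [← hp, e, h.base])) p1
  obtain ⟨c1, c2⟩ := h.sq_out hi (sq_of_isConj h.d2 p1)
  have mul : ∀ a b, F (a * b) = F a * F b := fun a b => by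
    by_cases e : Inn a ∨ Inn b
    · exact h.mul a b e
    · rw [h.out a b (not_or.mp e).1 (not_or.mp e).2, c1, mul_one]
  have key : ∀ u b, IsConj u p → Commute b u → b * b ≠ 1 → IsConj u (u * (b * b)) →
      IsConj d (F j0) ∨ IsConj d (F (j0 * τ)) := fun u b a1 a2 a3 a4 => by
    have a5 := p1.trans (h.conj a1).symm
    obtain ⟨k, hk⟩ := IsConj.exists_cj a5.symm
    obtain ⟨b', hb⟩ := h.surj _ (hk ▸ commute_cj (h.comm.mpr a2) k)
    refine fin (τ * (b' * b')) (inn_τ.mul (inn_sq _)) (fun e => a3 (h.inj ?_)) ?_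
    · have := congrArg F (mul_eq_left.mp e)
      rw [mul, hb, h.one] at this
      rw [mul, h.one, show F b * F b = k * (k⁻¹ * F b * k * (k⁻¹ * F b * k)) * k⁻¹ by group, this]
      group
    · refine (a5.trans (h.conj a4)).trans ?_
      rw [mul, mul, mul, mul, h.base, hb, ← hk,
        show k⁻¹ * F u * k * (k⁻¹ * F b * k * (k⁻¹ * F b * k)) = k⁻¹ * (F u * (F b * F b)) * k by group]
      exact isConj_cj _ _
  rcases c2 with e | e
  · refine key _ (pw [4,7,7,5,4,5,3]) e (pcm_spec (by decide +kernel)) ?_ ?_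
    · rw [← pw_append]; exact pne_spec (w := []) (by decide +kernel)
    · rw [zz, ← pw_append, ← pw_append]; exact pcj_conj (k := [3,5,3,3,5,3]) (by decide +kernel)
  · refine key _ (pw [3,5,4,5,7,3,6]) e (pcm_spec (by decide +kernel)) ?_ ?_
    · rw [← pw_append]; exact pne_spec (w := []) (by decide +kernel)
    · rw [ee, ← pw_append, ← pw_append]; exact pcj_conj (k := [1,4,7,5,3,6]) (by decide +kernel)

theorem stepB {q : P} (hq : q = j0 ∨ q = j0 * τ) (e : IsConj d (F q)) :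
    ∃ g q', (q' = j0 ∨ q' = j0 * τ) ∧ g⁻¹ * d * g = F q ∧ g⁻¹ * F q' * g = d := by
  obtain ⟨g, hg⟩ := IsConj.exists_cj e
  have b1 : Commute (pw [3,5,4,6,6,5,7,7]) j0 := pcm_spec (by decide +kernel)
  have b2 : pw [3,5,4,6,6,5,7,7] * pw [3,5,4,6,6,5,7,7] = τ := (pw_append _ _).symm.trans (peq_spec (by decide +kernel))
  have b3 : Inn (pw [3,5,4,6,6,5,7,7]) := inn_pw.mpr (by decide +kernel)
  generalize pw [3,5,4,6,6,5,7,7] = b at b1 b2 b3
  have b4 : Commute b q := by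
    rcases hq with rfl | rfl
    exacts [b1, b1.mul_right (τ_cen b)]
  obtain ⟨b', hb⟩ := h.surj (g⁻¹⁻¹ * F b * g⁻¹) (by
    have := commute_cj (h.comm.mpr b4) g⁻¹
    rwa [← hg, show g⁻¹⁻¹ * (g⁻¹ * d * g) * g⁻¹ = d by group] at this)
  have b5 : F b' * F b' = g * d * g⁻¹ := by
    rw [hb, ← h.base, ← b2, h.mul _ _ (Or.inl b3)]; group
  obtain ⟨q1, i1, e1⟩ : ∃ q1, Inn q1 ∧ F q1 = g * d * g⁻¹ := by
    by_cases hi : Inn b'
    · exact ⟨_, inn_sq b', by rw [h.mul _ _ (Or.inl hi), b5]⟩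
    · rcases h.cc with e | e
      · exact ⟨_, inn_sq b', by rw [h.out _ _ hi hi, b5, e, mul_one]⟩
      · exact ⟨_, (inn_sq b').mul inn_τ, by
          rw [h.mτ, h.out _ _ hi hi, b5, e, mul_assoc _ d d, h.d2, mul_one]⟩
  have fin : ∀ q', IsConj q' q1 → ∃ g : G, g⁻¹ * d * g = F q ∧ g⁻¹ * F q' * g = d := fun q' e' => by
    obtain ⟨k, hk⟩ := IsConj.exists_cj e'
    refine ⟨F k * g, ?_, ?_⟩
    · rw [← hg, show (F k * g)⁻¹ * d * (F k * g) = g⁻¹ * ((F k)⁻¹ * d * F k) * g by group,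
        cj_of_commute (h.mem k)]
    · rw [show (F k * g)⁻¹ * F q' * (F k * g) = g⁻¹ * ((F k)⁻¹ * F q' * F k) * g by group, ← h.cj, hk,
        e1]
      group
  have dq : IsConj d (F q1) := isConj_iff.mpr ⟨g, e1.symm⟩
  rcases cls_inn (h.sq_inn i1 (sq_of_isConj h.d2 dq)) i1 with e2 | e2 | e2 | e2
  · rw [e2, h.one, isConj_one_left] at dq
    exact absurd dq h.d1
  · exfalso
    rw [e2, h.base] at e1
    have : q = τ := h.inj (by
      rw [← hg, h.base]
      conv_lhs => rw [e1]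
      group)
    rcases hq with rfl | rfl
    exacts [j0_τ this, j0_ne (mul_eq_right.mp this)]
  · obtain ⟨g', hg'⟩ := fin _ e2
    exact ⟨g', _, Or.inl rfl, hg'⟩
  · obtain ⟨g', hg'⟩ := fin _ e2
    exact ⟨g', _, Or.inr rfl, hg'⟩

theorem pull {q q' : P} {g : G} (hq : q = j0 ∨ q = j0 * τ) (hq' : q' = j0 ∨ q' = j0 * τ)
    (g1 : g⁻¹ * d * g = F q) (g2 : g⁻¹ * F q' * g = d) {k : P} (hk : Commute k j0) :
    ∃ k', Commute k' j0 ∧ F k' = g⁻¹ * F k * g := by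
  have a : ∀ {q k : P}, (q = j0 ∨ q = j0 * τ) → (Commute k j0 ↔ Commute k q) := by
    rintro _ k (rfl | rfl)
    · rfl
    · exact ⟨fun e => e.mul_right (τ_cen k), fun e => by
        have := e.mul_right (τ_cen k)
        rwa [mul_assoc, τ_sq, mul_one] at this⟩
  obtain ⟨k', e⟩ := h.surj (g⁻¹ * F k * g) (g2 ▸ commute_cj (h.comm.mpr ((a hq').mp hk)) g)
  exact ⟨k', (a hq).mpr (h.comm.mp (by rw [e, ← g1]; exact commute_cj (h.mem k) g)), e⟩

theorem stepC {q q' : P} {g : G} (hq : q = j0 ∨ q = j0 * τ) (hq' : q' = j0 ∨ q' = j0 * τ)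
    (g1 : g⁻¹ * d * g = F q) (g2 : g⁻¹ * F q' * g = d) :
    q = j0 ∧ q' = j0 ∧ ∃ v, V0 v ∧ F (v * ih⁻¹) = g⁻¹ * F ih * g := by
  have mc : ∀ x y : G, g⁻¹ * (x * y) * g = g⁻¹ * x * g * (g⁻¹ * y * g) := fun x y => by group
  have tq : ∀ {q : P}, (q = j0 ∨ q = j0 * τ) → V0 q ∧ V0 (q * τ) := by
    rintro _ (rfl | rfl)
    · exact ⟨Or.inr (Or.inr (Or.inl rfl)), Or.inr (Or.inr (Or.inr rfl))⟩
    · exact ⟨Or.inr (Or.inr (Or.inr rfl)), Or.inr (Or.inr (Or.inl (by rw [mul_assoc, τ_sq, mul_one])))⟩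
  have vv : ∀ v, V0 v → ∃ v', V0 v' ∧ F v' = g⁻¹ * F v * g := by
    have a1 : ∃ v', V0 v' ∧ F v' = g⁻¹ * F q' * g := ⟨τ, Or.inr (Or.inl rfl), h.base.trans g2.symm⟩
    have a2 : ∃ v', V0 v' ∧ F v' = g⁻¹ * F (q' * τ) * g :=
      ⟨q * τ, (tq hq).2, by rw [h.mτ, h.mτ, mc, g1, g2, (h.mem q).eq]⟩
    rintro _ (rfl | rfl | rfl | rfl)
    · exact ⟨1, Or.inl rfl, by rw [h.one]; group⟩
    · exact ⟨q, (tq hq).1, by rw [h.base, g1]⟩
    · rcases hq' with rfl | rfl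
      exacts [a1, by rwa [mul_assoc j0, τ_sq, mul_one] at a2]
    · rcases hq' with rfl | rfl
      exacts [a2, a1]
  obtain ⟨p, p1, p2⟩ := h.pull hq hq' g1 g2 ih_j0
  have zz1 : j0 * τ ≠ 1 := fun e => j0_τ (by
    rw [eq_inv_of_mul_eq_one_left e, inv_eq_of_mul_eq_one_right τ_sq])
  have p3 : F p * F p = g⁻¹ * F (j0 * τ) * g := by
    rw [p2, ← mc, ← h.mul _ _ (Or.inl inn_ih), ih_sq]
  have p4 := z2P p1 fun k hk => by
    obtain ⟨k', k1, k2⟩ := h.pull (g := g⁻¹) hq' hq (by rw [← g2]; group) (by rw [← g1]; group) hk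
    obtain ⟨a, b, e, _⟩ := delta k1
    have w1 : V0 (j0 ^ a * τ ^ b) := v0_of (by
      rw [map_mul, map_pow, map_pow, τ_map, one_pow, mul_one, j0, π0_pw]
      rcases Nat.even_or_odd' a with ⟨n, rfl | rfl⟩
      · left; rw [pow_mul, pow_two, tm.sq, one_pow]
      · right; rw [pow_succ, pow_mul, pow_two, tm.sq, one_pow, one_mul])
    rw [mul_assoc ih] at e
    generalize j0 ^ a * τ ^ b = v at e w1
    obtain ⟨w2, w3, w4⟩ := w1.spec
    obtain ⟨v', v1, v2⟩ := vv v w1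
    have e2 : ih⁻¹ * k' * ih = k' * v := by
      rw [show ih⁻¹ * k' * ih = k' * (k'⁻¹ * ih * k')⁻¹ * ih by group, e, mul_inv_rev,
        inv_eq_of_mul_eq_one_right w2]
      group
    have e3 : p⁻¹ * k * p = k * v' := h.inj (by
      rw [h.cj, h.mul _ _ (Or.inr v1.spec.2.1), p2, v2,
        show F k = g⁻¹ * F k' * g by rw [k2]; group, ← mc, ← h.mul _ _ (Or.inr w3), ← e2, h.cj]
      group)
    rwa [e3, inv_mul_cancel_left]
  rcases p4 with p4 | p4
  · exfalso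
    rw [← h.mul _ _ (Or.inl p4.spec.2.1), p4.spec.1, h.one] at p3
    refine zz1 (h.inj ?_)
    rw [h.one, show F (j0 * τ) = g * (g⁻¹ * F (j0 * τ) * g) * g⁻¹ by group, ← p3]; group
  obtain ⟨w2, w3, w4⟩ := p4.spec
  have p5 : p * p = j0 * τ := by
    have a1 : (j0 * τ)⁻¹ = j0 * τ := inv_eq_of_mul_eq_one_right (sq_mul j0_sq τ_sq (τ_cen _))
    rw [← a1, ← ih_sq, eq_inv_iff_mul_eq_one, ← w2, show p * p * (ih * ih) = p * (p * ih) * ih by group,
      mul_assoc p (p * ih), ← (w4 ih ih_j0).eq]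
    group
  rw [← h.mul _ _ (Or.inl ((inn_mul_iff inn_ih).mp w3)), p5] at p3
  have n1 : F (j0 * τ) ≠ d := fun e => j0_ne (mul_eq_right.mp (h.inj (e.trans h.base.symm)))
  refine ⟨hq.resolve_right fun e => n1 ?_, hq'.resolve_right fun e => n1 ?_, p * ih, p4, by
    rw [mul_inv_cancel_right, p2]⟩
  · rw [e, p3] at g1
    exact (mul_left_cancel (mul_right_cancel g1)).symm
  · rw [p3, ← e, g2]

theorem fusion [Finite G] [IsSimpleGroup G] (hc : d ∉ Subgroup.center G) :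
    c = 1 ∧ (∃ g, g⁻¹ * d * g = F j0 ∧ g⁻¹ * F j0 * g = d) ∧ ¬ IsConj d (F (j0 * τ)) ∧
      ((IsConj d (F zz) ∧ ¬ IsConj d (F ee)) ∨ (IsConj d (F ee) ∧ ¬ IsConj d (F zz))) := by
  have n0 : ¬ IsConj d (F (j0 * τ)) := fun e => by
    obtain ⟨g, q', a1, a2, a3⟩ := h.stepB (Or.inr rfl) e
    exact τ_ne (mul_eq_left.mp (h.stepC (Or.inr rfl) a1 a2 a3).1)
  obtain ⟨g, q', a1, g1, g2⟩ := h.stepB (Or.inl rfl) ((h.stepA hc).resolve_right n0)
  obtain ⟨_, rfl, v, v1, v2⟩ := h.stepC (Or.inl rfl) a1 g1 g2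
  have mc : ∀ x y : G, g⁻¹ * (x * y) * g = g⁻¹ * x * g * (g⁻¹ * y * g) := fun x y => by group
  have b1 : Commute (pw [6,3,3,3,7]) j0 := pcm_spec (by decide +kernel)
  have b2 : IsConj j0 (pw [6,3,3,3,7]) := pcj_conj (k := [7, 7]) (by decide +kernel)
  have b3 : (pw [6,3,3,3,7])⁻¹ * ih * pw [6,3,3,3,7] = ih * j0 :=
    (pcj_spec (w := iw ++ jw) (by decide +kernel)).trans (pw_append _ _)
  generalize pw [6,3,3,3,7] = a at b1 b2 b3
  obtain ⟨b, c1, c2⟩ := h.pull (Or.inl rfl) a1 g1 g2 b1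
  obtain ⟨w2, w3, w4⟩ := v1.spec
  have e1 : b⁻¹ * (v * ih⁻¹) * b = v * ih⁻¹ * τ := h.inj (by
    rw [h.cj, h.mτ, c2, v2, ← g2, ← mc, ← h.mul _ _ (Or.inl inn_ih), ← b3, h.cj]; group)
  have e2 : b⁻¹ * ih * b = ih * τ := by
    rw [show b⁻¹ * (v * ih⁻¹) * b = b⁻¹ * v * b * (b⁻¹ * ih * b)⁻¹ by group, cj_of_commute (w4 b c1),
      mul_assoc v, mul_right_inj, inv_eq_iff_eq_inv, mul_inv_rev, inv_inv,
      inv_eq_of_mul_eq_one_right τ_sq] at e1
    rw [e1, (τ_cen ih).eq]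
  have o : ¬ Inn b := fun hi => by
    obtain ⟨m, n, e3, e4⟩ := delta c1
    rw [e2, mul_assoc, mul_right_inj] at e3
    rcases Nat.even_or_odd' n with ⟨n, rfl | rfl⟩
    · rw [pow_mul, pow_two, τ_sq, one_pow, mul_one] at e3
      rcases Nat.even_or_odd' m with ⟨m, rfl | rfl⟩
      · rw [pow_mul, pow_two, j0_sq, one_pow] at e3; exact τ_ne e3
      · rw [pow_succ, pow_mul, pow_two, j0_sq, one_pow, one_mul] at e3; exact j0_τ e3.symm
    · rw [show sc (π0 b) = 1 from hi, pow_succ, pow_mul] at e4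
      simp at e4
  have dj : IsConj d (F j0) := g1 ▸ isConj_cj d g
  have db : IsConj d (F b) := c2 ▸ (dj.trans (h.conj b2)).trans (isConj_cj _ g)
  obtain ⟨s1, s2⟩ := h.sq_out o (sq_of_isConj h.d2 db)
  have nb : ¬ IsConj d (F (b * j0)) := fun e => n0 (by
    rw [h.mul _ _ (Or.inr inn_j0), c2, ← g1, ← mc, ← h.mτ] at e
    exact (e.trans (isConj_cj _ g).symm).trans (h.conj (conj_τ b2)).symm)
  have s3 := cls_out (x := b * j0) (by
    rw [← map_mul, sq_mul (s2.elim (sq_of_isConj zz_sq) (sq_of_isConj ee_sq)) j0_sq c1, map_one])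
    (mt (inn_mul_iff inn_j0).mp o)
  refine ⟨s1, ⟨g, g1, g2⟩, n0, ?_⟩
  rcases s2 with s2 | s2 <;> rcases s3 with s3 | s3
  · exact absurd ((db.trans (h.conj s2).symm).trans (h.conj s3)) nb
  · exact Or.inl ⟨db.trans (h.conj s2).symm, fun e => nb (e.trans (h.conj s3))⟩
  · exact Or.inr ⟨db.trans (h.conj s2).symm, fun e => nb (e.trans (h.conj s3))⟩
  · exact absurd ((db.trans (h.conj s2).symm).trans (h.conj s3)) nb

end HF

/-- An isomorphism onto the centraliser of a conjugate of `d`, with the classes that fuse. -/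
structure Ch (d : G) (u v : P) (E : P →* G) : Prop where
  inj : Function.Injective E
  surj : ∀ x, Commute x (E τ) → ∃ a, E a = x
  dτ : IsConj d (E τ)
  dj : IsConj d (E j0)
  nz : ¬ IsConj d (E (j0 * τ))
  du : IsConj d (E u)
  nv : ¬ IsConj d (E v)
  sw : ∃ g, g⁻¹ * E τ * g = E j0 ∧ g⁻¹ * E j0 * g = E τ

theorem exists_Ch [Finite G] [IsSimpleGroup G] (t : G) (ht : orderOf t = 2)
    (M : Subgroup (Subgroup.centralizer ({t} : Set G))) [M.Normal] (hM : M.index = 2)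
    (hout : Subgroup.centralizer (M : Set (Subgroup.centralizer ({t} : Set G))) ≤ M)
    (hcov : IsNonsplitDoubleCover M Spor.HS) :
    ∃ E : P →* G, E τ = t ∧ (Ch t zz ee E ∨ Ch t ee zz E) := by
  obtain ⟨c, F, h⟩ := exists_HF t ht M hM hout hcov
  have hc : t ∉ Subgroup.center G := fun e => by
    rcases (inferInstance : (Subgroup.center G).Normal).eq_bot_or_eq_top with e1 | e1
    · exact h.d1 (Subgroup.mem_bot.mp (e1 ▸ e))
    · exact pnc_spec (u := [1]) (w := [3]) (by decide +kernel)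
        (h.comm.mp (Subgroup.mem_center_iff.mp (e1 ▸ Subgroup.mem_top _) _))
  obtain ⟨c1, ⟨g, g1, g2⟩, n0, hx⟩ := h.fusion hc
  let E : P →* G := MonoidHom.mk' F fun a b => by
    by_cases e : Inn a ∨ Inn b
    · exact h.mul a b e
    · rw [h.out a b (not_or.mp e).1 (not_or.mp e).2, c1, mul_one]
  have b : E τ = t := h.base
  have k : ∀ u v, IsConj t (F u) ∧ ¬ IsConj t (F v) → Ch t u v E := fun u v e =>
    ⟨h.inj, b ▸ h.surj, b ▸ IsConj.refl _, (g1 ▸ isConj_cj t g : IsConj t (F j0)), n0, e.1, e.2, g,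
      b ▸ g1, b ▸ g2⟩
  exact ⟨E, b, hx.imp (k _ _) (k _ _)⟩

end Cfsg.H6.HNR
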