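import Cfsg.Agent.H6.HNR.S4

/-! The chart at a second involution. -/

set_option autoImplicit false
set_option maxRecDepth 100000

namespace Cfsg.H6.HNR

open G R

variable {G : Type*} [Group G] {d : G} {u v : P} {E F : P →* G}

/-- The two outer classes in either order. -/
def UV (u v : P) : Prop := (u = zz ∧ v = ee) ∨ (u = ee ∧ v = zz)

theorem UV.uτ (h : UV u v) : IsConj u (u * τ) := by
  rcases h with ⟨rfl, _⟩ | ⟨rfl, _⟩
  exacts [zz_τ, ee_τ]

theorem UV.v1 (h : UV u v) : v ≠ 1 := by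
  rcases h with ⟨_, rfl⟩ | ⟨_, rfl⟩
  exacts [fun e => out_ee (e ▸ inn_one), fun e => out_zz (e ▸ inn_one)]

/-- A chart moved by conjugation on both sides. -/
def mv (E : P →* G) (g : G) (k : P) : P →* G :=
  (MulAut.conj g⁻¹).toMonoidHom.comp (E.comp (MulAut.conj k).toMonoidHom)

theorem mv_apply (g : G) (k a : P) : mv E g k a = g⁻¹ * E (k * a * k⁻¹) * g := by simp [mv]

theorem mv_eq (g : G) (k a : P) : mv E g k a = (E k⁻¹ * g)⁻¹ * E a * (E k⁻¹ * g) := by
  rw [mv_apply, map_mul, map_mul, map_inv]; group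

theorem mv_τ (g : G) (k : P) : mv E g k τ = g⁻¹ * E τ * g := by
  rw [mv_apply, (τ_cen k).eq, mul_inv_cancel_right]

namespace Ch

variable (h : Ch d u v E)
include h

theorem d2 : d * d = 1 := sq_of_isConj (by rw [← map_mul, τ_sq, map_one]) h.dτ.symm

theorem n1 : ¬ IsConj d 1 := fun e => by
  have := e.symm.trans h.dτ
  rw [isConj_one_right] at this
  exact τ_ne (h.inj (this.trans (map_one E).symm))

theorem comm {a b : P} : Commute (E a) (E b) ↔ Commute a b :=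
  ⟨fun e => h.inj (by rw [map_mul, map_mul]; exact e), fun e => e.map E⟩

theorem move (g : G) (k : P) : Ch d u v (mv E g k) := by
  have a : ∀ x, IsConj d (mv E g k x) ↔ IsConj d (E x) := fun x => by
    rw [mv_eq]
    exact ⟨fun e => e.trans (isConj_cj _ _).symm, fun e => e.trans (isConj_cj _ _)⟩
  obtain ⟨s, s1, s2⟩ := h.sw
  refine ⟨fun x y e => ?_, fun x hx => ?_, (a _).mpr h.dτ, (a _).mpr h.dj, mt (a _).mp h.nz,
    (a _).mpr h.du, mt (a _).mp h.nv, (E k⁻¹ * g)⁻¹ * s * (E k⁻¹ * g), ?_, ?_⟩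
  · rw [mv_eq, mv_eq] at e
    exact h.inj (mul_left_cancel (mul_right_cancel e))
  · rw [mv_eq] at hx
    obtain ⟨y, hy⟩ := h.surj ((E k⁻¹ * g)⁻¹⁻¹ * x * (E k⁻¹ * g)⁻¹) (by
      have := commute_cj hx (E k⁻¹ * g)⁻¹
      rwa [show (E k⁻¹ * g)⁻¹⁻¹ * ((E k⁻¹ * g)⁻¹ * E τ * (E k⁻¹ * g)) * (E k⁻¹ * g)⁻¹ = E τ by
        group] at this)
    exact ⟨y, by rw [mv_eq, hy]; group⟩
  · rw [mv_eq, mv_eq, ← s1]; group
  · rw [mv_eq, mv_eq, ← s2]; group

theorem typ (hu : UV u v) {x : P} (hx : IsConj d (E x)) : x = τ ∨ IsConj j0 x ∨ IsConj u x := by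
  rcases cls (x := x) (h.inj (by rw [map_mul, map_one]; exact sq_of_isConj h.d2 hx))
    with e | e | e | e | e
  · exact absurd (by rwa [e, map_one] at hx) h.n1
  · exact Or.inl e
  · exact Or.inr (Or.inl e)
  · exact absurd (hx.trans (E.map_isConj e).symm) h.nz
  · rcases hu with ⟨rfl, rfl⟩ | ⟨rfl, rfl⟩
    · exact Or.inr (Or.inr (e.resolve_right fun e => h.nv (hx.trans (E.map_isConj e).symm)))
    · exact Or.inr (Or.inr (e.resolve_left fun e => h.nv (hx.trans (E.map_isConj e).symm)))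

theorem typj (hu : UV u v) {x : P} (hx : IsConj d (E x)) (h1 : ¬ IsConj d (E (x * τ))) (h2 : x ≠ τ) :
    IsConj j0 x :=
  ((h.typ hu hx).resolve_left h2).resolve_right fun e =>
    h1 ((h.du.trans (E.map_isConj hu.uτ)).trans (E.map_isConj (conj_τ e)))

theorem lift_eq {x y : P} (hx : IsConj d (E x)) (hy : IsConj j0 y) (e : π0 x = π0 y) : x = y :=
  (dc.eq e).resolve_right fun e' => h.nz (by
    rw [e'] at hx
    exact hx.trans (E.map_isConj (conj_τ hy)).symm)

end Ch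

/-- The words of the first tuple. -/
def aσ : List (List ℕ) := sW aS ++ [[1, 1]]

theorem a_conj (i : ℕ) (hi : i < 5) : IsConj j0 (evS HN.H.ev aσ i) := by
  interval_cases i
  exacts [IsConj.refl _, pcj_conj (k := [7, 7]) (by decide +kernel),
    pcj_conj (k := [4, 6, 5, 4]) (by decide +kernel), pcj_conj (k := [3, 7, 3]) (by decide +kernel),
    pcj_conj (k := [6, 3, 6]) (by decide +kernel)]

theorem Ch.rig (h : Ch d u v F) (hu : UV u v) {bσ : List (List ℕ)}
    (hb : ∀ i, 0 < i → i < 5 → IsConj u (evS HN.H.ev bσ i) ∧ IsConj v (evS HN.H.ev bσ i * j0))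
    (hc : (bσ.length == 6 && bσ.getD 0 [] == [1, 1] && bσ.getD 5 [] == jw &&
      (bσ.all fun w => peq (w ++ jw) (jw ++ w)) &&
      (aR.all fun r => peq (subst bσ r) [] || peq (subst bσ r) jw) &&
      (aN.all fun r => pne (subst bσ r) [] && pne (subst bσ r) jw) &&
      (aR ++ aN).all fun r => r.all fun l => Nat.blt l 5) = true) :
    ∃ E, Ch d u v E ∧ ∀ w, E (pw (subst aσ w)) = F (pw (subst bσ w)) := by
  simp only [Bool.and_eq_true, beq_iff_eq, List.all_eq_true, Bool.or_eq_true, Nat.blt_eq,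
    List.mem_append] at hc
  obtain ⟨⟨⟨⟨⟨⟨c1, c2⟩, c3⟩, c4⟩, c5⟩, c6⟩, c7⟩ := hc
  obtain ⟨g, g1, g2⟩ := h.sw
  have h' := h.move g 1
  have e1 : mv F g 1 τ = F j0 := (mv_τ _ _).trans g1
  have e2 : mv F g 1 j0 = F τ := by rw [mv_apply, one_mul, inv_one, mul_one, g2]
  generalize mv F g 1 = E at h' e1 e2
  have b0 : evS HN.H.ev bσ 0 = τ := by rw [evS, c2]; rfl
  have b5 : evS HN.H.ev bσ 5 = j0 := by rw [evS, c3]; rfl
  have ex : ∀ l, ∃ y, E y = F (evS HN.H.ev bσ l) := fun l => h'.surj _ (by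
    rw [e1, h.comm]
    exact Subgroup.mem_centralizer_singleton_iff.mp (evS_mem (K := Subgroup.centralizer {j0})
      (fun w hw => Subgroup.mem_centralizer_singleton_iff.mpr (pcm_spec (c4 w hw))) l))
  choose ys hy using ex
  have hw : ∀ w, E (evL ys w) = F (pw (subst bσ w)) := fun w => by
    rw [map_evL, funext hy, pw, ← evL_subst, map_evL]
  have cj : ∀ i < 5, IsConj j0 (ys i) := fun i hi => by
    by_cases i0 : i = 0
    · rw [i0, h'.inj ((hy 0).trans (b0 ▸ e2.symm))]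
    obtain ⟨a1, a2⟩ := hb i (by omega) hi
    refine h'.typj hu (hy i ▸ h.du.trans (F.map_isConj a1)) (fun e => h.nv ?_) fun e => hu.v1 ?_
    · rw [map_mul, hy, e1, ← map_mul] at e
      exact e.trans (F.map_isConj a2).symm
    · rw [h.inj ((hy i).symm.trans (e ▸ e1)), j0_sq, isConj_one_left] at a2
      exact a2
  have kk : ∀ w, evL (fun l => π0 (ys l)) w = 1 ↔
      pw (subst bσ w) = pw [] ∨ pw (subst bσ w) = pw jw := fun w => by
    rw [← map_evL]
    refine ⟨fun e => (dc.ker _ e).imp (fun e => h.inj ?_) fun e => h.inj ?_, fun e => ?_⟩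
    · rw [← hw, e, map_one]; exact (map_one F).symm
    · rw [← hw, e, e1]; rfl
    · rcases e with e | e
      · rw [h'.inj ((hw w).trans ((congrArg F e).trans ((map_one F).trans (map_one E).symm))), map_one]
      · rw [h'.inj ((hw w).trans ((congrArg F e).trans e1.symm)), τ_map]
  obtain ⟨γ, hγ⟩ := arig (fun l => π0 (ys l)) ⟨fun i hi => π0_pw jw ▸ π0.map_isConj (cj i hi),
    fun r hr => (kk r).mpr ((c5 r hr).imp peq_spec peq_spec),
    fun r hr => mt (kk r).mp (not_or.mpr ⟨pne_spec (c6 r hr).1, pne_spec (c6 r hr).2⟩)⟩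
  obtain ⟨k, rfl⟩ := HNR.G.surj γ
  refine ⟨mv E 1 k, h'.move 1 k, fun w => ?_⟩
  rw [pw, pw, ← evL_subst, ← evL_subst, map_evL, map_evL]
  refine evL_congr fun l _ => ?_
  by_cases hl : l < 5
  · rw [← h'.lift_eq (x := k⁻¹ * ys l * k)
      (h'.dj.trans (E.map_isConj ((cj l hl).trans (isConj_cj _ _)))) (a_conj l hl) (by
        rw [map_mul, map_mul, map_inv, hγ l hl, aσ, evS_append _ _ _ (by exact hl)]
        exact (π0_pw _).symm), mv_apply, ← hy]
    congr 1; group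
  · by_cases h5 : l = 5
    · rw [h5, b5, ← e1]
      exact (mv_τ _ _).trans (by group)
    · rw [evS, evS, List.getD_eq_default _ _ (by show 6 ≤ l; omega),
        List.getD_eq_default _ _ (by omega), evL_nil, map_one, map_one]

/-- The words of the second tuple. -/
def bσ : List (List ℕ) := [[1,1], [3,5,4], [6,3,3,5,4,4,7], [5], [1,1,5,6,6,5,7,7,5], [7,3,3,3,6]]

theorem Ch.rig1 (h : Ch d zz ee F) :
    ∃ E, Ch d zz ee E ∧ ∀ w, E (pw (subst aσ w)) = F (pw (subst bσ w)) :=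
  h.rig (Or.inl ⟨rfl, rfl⟩) (fun i h1 h2 => by
    rw [evS, j0, ← pw, ← pw_append]
    interval_cases i
    exacts [⟨pcj_conj (k := [4]) (by decide +kernel), pcj_conj (k := [7,4,6]) (by decide +kernel)⟩,
      ⟨pcj_conj (k := [4,4,7]) (by decide +kernel), pcj_conj (k := [6,4,5,4,4,7,5]) (by decide +kernel)⟩,
      ⟨pcj_conj (k := []) (by decide +kernel), pcj_conj (k := []) (by decide +kernel)⟩,
      ⟨pcj_conj (k := [1,7,4,4,7,4,7,7,7,3,6,3,7,4,4,6,6,4,7,7,7,5]) (by decide +kernel), pcj_conj (k := [1,7,4,4,7,4,7,7,7,3,6,3,7,4,4,6,6,4,6,5,7,7]) (by decide +kernel)⟩]) (by decide +kernel)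

/-- The words of the second tuple in the other case. -/
def cσ : List (List ℕ) := [[1,1], [3,5,4,7,3,3,3,6], [6,3,3,5,4,4,7,7,3,3,3,6], [5,7,3,3,3,6], [1,1,5,6,6,5,7,7,5,7,3,3,3,6], [7,3,3,3,6]]

theorem Ch.rig2 (h : Ch d ee zz F) :
    ∃ E, Ch d ee zz E ∧ ∀ w, E (pw (subst aσ w)) = F (pw (subst cσ w)) :=
  h.rig (Or.inr ⟨rfl, rfl⟩) (fun i h1 h2 => by
    rw [evS, j0, ← pw, ← pw_append]
    interval_cases i
    exacts [⟨pcj_conj (k := [7,4,6]) (by decide +kernel), pcj_conj (k := [4]) (by decide +kernel)⟩,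
      ⟨pcj_conj (k := [6,4,5,4,4,7,5]) (by decide +kernel), pcj_conj (k := [4,4,7]) (by decide +kernel)⟩,
      ⟨pcj_conj (k := []) (by decide +kernel), pcj_conj (k := []) (by decide +kernel)⟩,
      ⟨pcj_conj (k := [1,7,4,4,7,4,7,7,7,3,6,3,7,4,4,6,6,4,6,5,7,7]) (by decide +kernel), pcj_conj (k := [1,7,4,4,7,4,7,7,7,3,6,3,7,4,4,6,6,4,7,7,7,5]) (by decide +kernel)⟩]) (by decide +kernel)

end Cfsg.H6.HNR
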