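import Cfsg.Agent.H6.HNR.S5

/-! The presented group maps into the given group. -/

set_option autoImplicit false
set_option maxRecDepth 100000

namespace Cfsg.H6.HNR

open G R

variable {G : Type*} [Group G] {d : G} {E F : P →* G}

theorem comm_sub {H : Type*} [Group H] {φ : P →* H} {x : H} {σ : List (List ℕ)}
    (h : ∀ w ∈ σ, Commute (φ (pw w)) x) (v : List ℕ) : Commute (φ (pw (subst σ v))) x :=
  Subgroup.mem_centralizer_singleton_iff.mp (evL_subst_mem (ev := HN.H.ev)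
    (K := (Subgroup.centralizer {x}).comap φ)
    (fun w hw => Subgroup.mem_centralizer_singleton_iff.mpr (h w hw)) v)

theorem cj_iff {H : Type*} [Group H] {x y g : H} (h : Commute g y) :
    Commute y (g⁻¹ * x * g) ↔ Commute y x := by
  refine ⟨fun e => ?_, fun e => ?_⟩
  · have := commute_cj e g⁻¹
    rwa [cj_of_commute h.inv_left, show g⁻¹⁻¹ * (g⁻¹ * x * g) * g⁻¹ = x by group] at this
  · have := commute_cj e g
    rwa [cj_of_commute h] at this

section
variable (hF : Ch d zz ee F) (hE : Ch d zz ee E)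
  (tr : ∀ w, E (pw (subst aσ w)) = F (pw (subst bσ w)))
include tr

theorem tr_τ : E τ = F j0 := tr [5]

theorem tr_j : E j0 = F τ := tr [0]

include hF hE

theorem second : ∃ Q, E Q = F (pw [6,3,3,3,7]) ∧ (Q = pw [3,5,4] ∨ Q = pw [3,5,4] * τ) := by
  obtain ⟨Q, hQ⟩ := hE.surj (F (pw [6,3,3,3,7])) (by
    rw [tr_τ tr, hF.comm]; exact pcm_spec (by decide +kernel))
  have a : ∀ i w, (pcj [6,3,3,3,7] (subst bσ [i]) (subst bσ w) && pcj [3,5,4] (subst aσ [i]) (subst aσ w)) = true →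
      Commute (π0 (Q * (pw [3,5,4])⁻¹)) (evL ev (subst aσ [i])) := fun i w h => by
    rw [Bool.and_eq_true] at h
    rw [← π0_pw]
    refine Commute.map (commute_of_cj ?_) π0
    have : Q⁻¹ * pw (subst aσ [i]) * Q = (pw [3,5,4])⁻¹ * pw (subst aσ [i]) * pw [3,5,4] := hE.inj (by
      rw [pcj_spec h.2, tr, ← pcj_spec h.1, map_mul, map_mul, map_mul, map_mul, map_inv, map_inv,
        tr, hQ])
    rw [show (Q * (pw [3,5,4])⁻¹)⁻¹ * pw (subst aσ [i]) * (Q * (pw [3,5,4])⁻¹) =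
      pw [3,5,4] * (Q⁻¹ * pw (subst aσ [i]) * Q) * (pw [3,5,4])⁻¹ by group, this]
    group
  have v := v0_of (fix3 (γ := π0 (Q * (pw [3,5,4])⁻¹)) fun i hi => by
    interval_cases i
    exacts [a 0 [0] (by decide +kernel), a 1 [2] (by decide +kernel), a 2 [1] (by decide +kernel), a 3 [3] (by decide +kernel)])
  have dq : IsConj d (E Q) := hQ ▸ hF.dj.trans (F.map_isConj (pcj_conj (k := [7, 7]) (by decide +kernel)))
  have e1 : IsConj ee (j0 * pw [3,5,4]) := by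
    rw [j0, ← pw_append]; exact pcj_conj (k := [7,4,6]) (by decide +kernel)
  refine ⟨Q, hQ, ?_⟩
  rcases v with v | v | v | v <;> rw [mul_inv_eq_iff_eq_mul] at v
  · exact Or.inl (by rw [v, one_mul])
  · exact Or.inr (by rw [v, (τ_cen _).eq])
  · exact absurd (dq.trans (E.map_isConj (v ▸ e1)).symm) hE.nv
  · refine absurd (dq.trans (E.map_isConj ?_).symm) hE.nv
    rw [v, mul_assoc, ← (τ_cen _).eq, ← mul_assoc]
    exact ee_τ.trans (conj_τ e1)

theorem third : Commute (E (pw [6,6,3,3,3,7,7])) (F (pw [3,3,7,4,6,3,3,7,4])) := by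
  obtain ⟨Q, hQ, hq⟩ := second hF hE tr
  have h1 : (pw [3,3,7,4,6,3,3,7,4])⁻¹ * j0 * pw [3,3,7,4,6,3,3,7,4] = pw [6,3,3,3,7] := pcj_spec (by decide +kernel)
  have h2 : (pw [3,3,7,4,6,3,3,7,4])⁻¹ * pw [6,3,3,3,7] * pw [3,3,7,4,6,3,3,7,4] = j0 * pw [6,3,3,3,7] :=
    (pcj_spec (w := jw ++ [6,3,3,3,7]) (by decide +kernel)).trans (pw_append _ _)
  have h3 : (pw [3,3,7,4,6,3,3,7,4])⁻¹ * (j0 * pw [6,3,3,3,7]) * pw [3,3,7,4,6,3,3,7,4] = j0 := by
    rw [j0, ← pw_append]; exact pcj_spec (by decide +kernel)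
  have h4 : pw [3,3,7,4,6,3,3,7,4] ^ 3 = 1 := (pw_rp _ _).symm.trans (peq_spec (w := []) (by decide +kernel))
  have s1 : Commute (pw [6,6,3,3,3,7,7]) (pw [3,5,4]) := pcm_spec (by decide +kernel)
  have s2 : IsConj j0 (pw [6,6,3,3,3,7,7]) := pcj_conj (k := [6,6,6]) (by decide +kernel)
  have s3 : IsConj ee (pw [6,6,3,3,3,7,7] * pw [3,5,4]) := by
    rw [← pw_append]; exact pcj_conj (k := [7,4,7,7]) (by decide +kernel)
  have s4 : IsConj ee (pw [6,6,3,3,3,7,7] * (τ * Q)) := by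
    rcases hq with rfl | rfl
    · rw [← (τ_cen _).eq, ← mul_assoc]; exact ee_τ.trans (conj_τ s3)
    · rwa [(τ_cen _).eq, ← mul_assoc τ, τ_sq, one_mul]
  have s5 : Commute (pw [6,6,3,3,3,7,7]) Q := by
    rcases hq with rfl | rfl
    exacts [s1, s1.mul_right (τ_cen _)]
  have cc : ∀ w, peq (subst bσ w ++ [3,3,7,4,6,3,3,7,4]) ([3,3,7,4,6,3,3,7,4] ++ subst bσ w) = true →
      Commute (F (pw [3,3,7,4,6,3,3,7,4])) (E (pw (subst aσ w))) := fun w h => by
    rw [tr, hF.comm]; exact (pcm_spec h).symm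
  have fj : ∀ a b, (pw [3,3,7,4,6,3,3,7,4])⁻¹ * a * pw [3,3,7,4,6,3,3,7,4] = b → (F (pw [3,3,7,4,6,3,3,7,4]))⁻¹ * F a * F (pw [3,3,7,4,6,3,3,7,4]) = F b := fun a b e => by
    rw [← e, map_mul, map_mul, map_inv]
  have cd : Commute (F (pw [3,3,7,4,6,3,3,7,4])) (E j0) := by rw [tr_j tr, hF.comm]; exact τ_cen _
  have g3 : F (pw [3,3,7,4,6,3,3,7,4]) ^ 3 = 1 := by rw [← map_pow, h4, map_one]
  have g1 := fj _ _ h1
  have g2 := fj _ _ h3
  rw [map_mul, ← hQ, ← tr_τ tr, ← map_mul] at g2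
  rw [← hQ, ← tr_τ tr] at g1
  generalize F (pw [3,3,7,4,6,3,3,7,4]) = g at *
  obtain ⟨s', hs⟩ := hE.surj (g⁻¹ * E (pw [6,6,3,3,3,7,7]) * g)
    (g2 ▸ commute_cj (hE.comm.mpr ((τ_cen _).mul_right s5)) g)
  have t1 : Commute Q s' := hE.comm.mp (by
    rw [hs, ← g1]; exact commute_cj (hE.comm.mpr (τ_cen _).symm) g)
  have t2 : E (s' * τ) = g⁻¹ * E (pw [6,6,3,3,3,7,7] * (τ * Q)) * g := by
    rw [map_mul, hs, ← g2, map_mul E (pw [6,6,3,3,3,7,7])]; group
  have t3 : IsConj d (E s') := hs ▸ (hE.dj.trans (E.map_isConj s2)).trans (isConj_cj _ g)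
  have t4 : IsConj j0 s' := hE.typj (Or.inl ⟨rfl, rfl⟩) t3
    (fun e => hE.nv ((t2 ▸ e).trans ((isConj_cj _ g).symm.trans (E.map_isConj s4).symm)))
    fun e => out_ee ((inn_conj s4).mpr (by
      rw [e, τ_sq, map_one, eq_comm, mul_assoc, inv_mul_eq_one, right_eq_mul] at t2
      rw [hE.inj (t2.trans (map_one E).symm)]
      exact inn_one))
  have t5 : ∀ w, peq (subst bσ w ++ [3,3,7,4,6,3,3,7,4]) ([3,3,7,4,6,3,3,7,4] ++ subst bσ w) = true →
      (Commute (pw (subst aσ w)) s' ↔ Commute (pw (subst aσ w)) (pw [6,6,3,3,3,7,7])) := fun w h => by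
    rw [← hE.comm, hs, cj_iff (cc w h), hE.comm]
  obtain ⟨e, he, e1⟩ := tm.cand (cm := [[3,5,4], subst aσ [1,2,3,1,4,3,2,1], subst aσ [0,3,4,3]]) (nc := [jw]) (L := [(70, [6,6,6], [6,6,3,3,3,7,7]), (1156, [3,6,3,7,4,4], [7,3,3,3,6,6,6,3,3,3,7,7,7,3,3,3,6])]) (by decide +kernel)
    (y := π0 s') (π0_pw jw ▸ π0.map_isConj t4) (by
      refine List.forall_mem_cons.mpr ⟨?_, List.forall_mem_cons.mpr ⟨?_,
        List.forall_mem_cons.mpr ⟨?_, by simp⟩⟩⟩ <;> rw [← π0_pw]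
      · rcases hq with rfl | rfl
        · exact t1.map π0
        · simpa [τ_map] using t1.map π0
      · exact ((t5 _ (by decide +kernel)).mpr (pcm_spec (by decide +kernel))).map π0
      · exact ((t5 _ (by decide +kernel)).mpr (pcm_spec (by decide +kernel))).map π0)
    (List.forall_mem_singleton.mpr fun e => pnc_spec (u := jw) (w := [6,6,3,3,3,7,7]) (by decide +kernel) (by
      have := comm_j0 e.symm
      exact hE.comm.mp ((cj_iff cd).mp (hs ▸ hE.comm.mpr this.symm))))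
  simp only [List.mem_cons, List.not_mem_nil, or_false] at he
  rcases he with rfl | rfl
  · rw [hE.lift_eq t3 s2 (e1.trans (π0_pw _).symm)] at hs
    exact (commute_of_cj hs.symm).symm
  · have i := inv_eq_of_mul_eq_one_right j0_sq
    rw [hE.lift_eq t3 (y := j0⁻¹ * pw [6,6,3,3,3,7,7] * j0) (s2.trans (isConj_cj _ _)) (e1.trans (by
      rw [i, j0, ← pw_append, ← pw_append, π0_pw]; rfl)), map_mul, map_mul, map_inv] at hs
    have j2 : E j0 * E j0 = 1 := by rw [← map_mul, j0_sq, map_one]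
    generalize E j0 = j at *
    generalize E (pw [6,6,3,3,3,7,7]) = s at *
    have k2 : Commute (g * g) s := commute_of_cj (by
      rw [show (g * g)⁻¹ * s * (g * g) = g⁻¹ * (g⁻¹ * s * g) * g by group, ← hs,
        show g⁻¹ * (j⁻¹ * s * j) * g = (g⁻¹ * j * g)⁻¹ * (g⁻¹ * s * g) * (g⁻¹ * j * g) by group,
        cj_of_commute cd, ← hs, show j⁻¹ * (j⁻¹ * s * j) * j = (j * j)⁻¹ * s * (j * j) by group, j2]
      group)
    have k3 := k2.mul_left k2
    rw [show g * g * (g * g) = g ^ 3 * g by rw [pow_three]; group, g3, one_mul] at k3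
    exact k3.symm

/-- The words that give the new generator. -/
def tσ : List (List ℕ) := [6,6,3,3,3,7,7] :: ([[0], [3], [4], [5,1,2,1]] : List (List ℕ)).map (subst aσ)

/-- The new generator. -/
def tw5 : List ℕ := subst tσ [3,0,2,4,3,4,0,2,4,0,2]

theorem fourth {v : List ℕ} : Commute (F (pw (subst [subst bσ [4,1,2,4], subst bσ [4,1,3,1,2,1], [3,3,7,4,6,3,3,7,4]] v))) (E (pw tw5)) := by
  refine comm_sub (List.forall_mem_cons.mpr ⟨?_, List.forall_mem_cons.mpr ⟨?_,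
    List.forall_mem_cons.mpr ⟨?_, by simp⟩⟩⟩) v
  · rw [← tr, hE.comm]; exact pcm_spec (by decide +kernel)
  · rw [← tr, hE.comm]; exact pcm_spec (by decide +kernel)
  · refine (comm_sub (List.forall_mem_cons.mpr ⟨third hF hE tr, fun w hw => ?_⟩) _).symm
    obtain ⟨u, hu, rfl⟩ := List.mem_map.mp hw
    rw [tr, hF.comm]
    exact pcm_spec (List.all_eq_true.mp (by decide +kernel :
      ([[0], [3], [4], [5,1,2,1]] : List (List ℕ)).all (fun u => peq (subst bσ u ++ [3,3,7,4,6,3,3,7,4]) ([3,3,7,4,6,3,3,7,4] ++ subst bσ u)) = true) u hu)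

end

end Cfsg.H6.HNR
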