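import Cfsg.Agent.H6.HNR.S6

/-! The embedding of the presented simple group. -/

set_option autoImplicit false
set_option maxRecDepth 100000

namespace Cfsg.H6.HNR

open G R

variable {G : Type*} [Group G] {d : G} {F : P →* G}

theorem Ch.emb (hF : Ch d zz ee F) :
    ∃ Φ : Spor.HN →* G, Function.Injective Φ ∧ ∀ p, Φ (HN.θ p) = F p := by
  obtain ⟨E, hE, tr⟩ := hF.rig1
  have cy : Commute (F (pw [3])) (E (pw tw5)) := by
    rw [peq_spec (u := [3]) (w := subst [subst bσ [4,1,2,4], subst bσ [4,1,3,1,2,1], [3,3,7,4,6,3,3,7,4]] [2,1,2,0,2,2,1,1,2,2,0,2,1,1,2]) (by decide +kernel)]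
    exact fourth hF hE tr
  have cl : Commute (F (pw [3,6,3,3,7,4,6,4,7,4,6,3])) (E (pw tw5)) := by
    rw [peq_spec (u := [3,6,3,3,7,4,6,4,7,4,6,3]) (w := subst [subst bσ [4,1,2,4], subst bσ [4,1,3,1,2,1], [3,3,7,4,6,3,3,7,4]] [2,2,0,0,2,0,2,2,0,2,0]) (by decide +kernel)]
    exact fourth hF hE tr
  have hx : F (pw [1]) = E (pw (subst aσ [3,1,4,1])) * F (pw [3,6,3,3,7,4,6,4,7,4,6,3]) := by
    rw [tr, ← map_mul, ← pw_append, peq_spec (u := [1]) (w := subst bσ [3,1,4,1] ++ [3,6,3,3,7,4,6,4,7,4,6,3]) (by decide +kernel)]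
  have hz : F (pw [5]) = E (pw (subst aσ [3])) := (tr [3]).symm
  have r5 : E (pw tw5) ^ 5 = 1 := by
    rw [← map_pow, ← pw_rp, peq_spec (w := []) (by decide +kernel)]; exact map_one E
  have rx : (F (pw [1]))⁻¹ * E (pw tw5) * F (pw [1]) * (E (pw tw5) * E (pw tw5)) = 1 := by
    have : (pw (subst aσ [3,1,4,1]))⁻¹ * pw tw5 * pw (subst aσ [3,1,4,1]) = (pw tw5 * pw tw5)⁻¹ := by
      rw [← pw_append, ← pw_inv (tw5 ++ tw5)]; exact pcj_spec (by decide +kernel)
    rw [hx, show (E (pw (subst aσ [3,1,4,1])) * F (pw [3,6,3,3,7,4,6,4,7,4,6,3]))⁻¹ * E (pw tw5) * (E (pw (subst aσ [3,1,4,1])) * F (pw [3,6,3,3,7,4,6,4,7,4,6,3])) =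
      (F (pw [3,6,3,3,7,4,6,4,7,4,6,3]))⁻¹ * ((E (pw (subst aσ [3,1,4,1])))⁻¹ * E (pw tw5) * E (pw (subst aσ [3,1,4,1]))) * F (pw [3,6,3,3,7,4,6,4,7,4,6,3]) by group,
      ← map_inv E, ← map_mul E, ← map_mul E, this, map_inv, map_mul,
      cj_of_commute (cl.mul_right cl).inv_right, inv_mul_cancel]
  have rz : (F (pw [5]) * E (pw tw5)) ^ 3 = 1 := by
    rw [hz, ← map_mul, ← map_pow, ← pw_append, ← pw_rp, peq_spec (w := []) (by decide +kernel)]
    exact map_one E
  generalize E (pw tw5) = T at cy r5 rx rz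
  let xs : ℕ → G := fun l => if l = 6 then T else if l = 7 then T⁻¹ else F (HN.H.ev l)
  have hw : ∀ w, w.all (fun l => Nat.blt l 6) = true → evL xs w = F (pw w) := fun w h => by
    rw [pw, map_evL]
    refine evL_congr fun l hl => ?_
    have := Nat.blt_eq ▸ List.all_eq_true.mp h l hl
    simp only [xs]
    rw [if_neg (by omega), if_neg (by omega)]
  have k : ∀ w, (w.all (fun l => Nat.blt l 6) && peq w []) = true → evL xs w = 1 := fun w h => by
    rw [Bool.and_eq_true] at h
    rw [hw w h.1, peq_spec h.2]; exact map_one F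
  have p1 : ∀ l, pw [l] = HN.H.ev l := fun l => evL_singleton _ l
  have i2 : HN.H.ev 2 = (HN.H.ev 1)⁻¹ := HN.H.hev.inv 1
  have i4 : HN.H.ev 4 = (HN.H.ev 3)⁻¹ := HN.H.hev.inv 3
  rw [p1] at cy rx rz
  obtain ⟨Φ, hΦ⟩ := HN.lift (ev' := xs) (good_of_rels (m := 8) (by simp [xs, HN.H.hev.zero])
    (fun l h => by
      simp only [xs]
      rw [if_neg (by omega), if_neg (by omega), HN.H.hev.eq_one (m := 8) (by norm_num) h, map_one])
    (by norm_num) (by
      intro r hr
      have : r ∈ [[0, 0], [2, 1], [1, 2], [4, 3], [3, 4], [5, 5], [7, 6], [6, 7]] := hr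
      simp only [List.mem_cons, List.not_mem_nil, or_false] at this
      rcases this with rfl | rfl | rfl | rfl | rfl | rfl | rfl | rfl
      · simp [evL, xs, HN.H.hev.zero]
      all_goals first
        | exact k _ (by decide +kernel)
        | simp [evL, xs])) (by
      intro r hr
      simp only [HN.R, List.mem_cons, List.not_mem_nil, or_false] at hr
      rcases hr with rfl | rfl | rfl | rfl | rfl | rfl | rfl | rfl | rfl | rfl | rfl | rfl | rfl | rfl
      iterate 10 exact k _ (by decide +kernel)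
      · simpa [evL, xs, pow_succ, mul_assoc] using r5
      · simpa [evL, xs, i2, mul_assoc] using rx
      · simp only [evL, xs, i4, List.map, List.prod_cons, List.prod_nil]
        simp [← cy.eq]
      · simpa [evL, xs, pow_succ, mul_assoc] using rz)
  have hθ : ∀ p, Φ (HN.θ p) = F p := fun p => by
    obtain ⟨w, rfl⟩ := exists_word HN.H.hev (X := HN.H.X) (x := p) (HN.H.hX ▸ Subgroup.mem_top p)
    rw [map_evL, map_evL, map_evL]
    refine evL_congr fun l _ => ?_
    rw [HN.hθ, evS, map_evL, funext hΦ]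
    by_cases h : l < 8
    · rw [hw _ (by interval_cases l <;> decide +kernel), ← p1]
      congr 1
      by_cases h0 : l = 0
      · rw [h0, p1, HN.H.hev.zero]; rfl
      · have : 0 < l := by omega
        exact peq_spec (by interval_cases l <;> decide +kernel)
    · rw [List.getD_eq_default _ _ (by show 8 ≤ l; omega), evL_nil,
        HN.H.hev.eq_one (m := 8) (by norm_num) (by omega), map_one]
  have := HN.simple
  exact ⟨Φ, injective_of_simple Φ (x := HN.θ τ) (by
    rw [hθ]; exact fun e => τ_ne (hF.inj (e.trans (map_one F).symm))), hθ⟩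

end Cfsg.H6.HNR
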