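import Cfsg.Agent.H6.HNR.S5
import Cfsg.Agent.H6.HNR.L2

/-! The second pattern of fusion does not occur. -/

set_option autoImplicit false
set_option maxRecDepth 100000

namespace Cfsg.H6

theorem dc_quot {N : Type*} [Group N] {z : N} (h2 : z * z = 1) (hc : ∀ x, Commute x z) :
    ∃ (K : Subgroup N) (_ : K.Normal), DC (QuotientGroup.mk' K) z := by
  let K : Subgroup N :=
    { carrier := {x | x = 1 ∨ x = z}
      one_mem' := Or.inl rfl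
      mul_mem' := by
        rintro _ _ (rfl | rfl) (rfl | rfl)
        exacts [Or.inl (one_mul 1), Or.inr (one_mul _), Or.inr (mul_one _), Or.inl h2]
      inv_mem' := by
        rintro _ (rfl | rfl)
        exacts [Or.inl inv_one, Or.inr (inv_eq_of_mul_eq_one_right h2)] }
  have hn : K.Normal := ⟨by
    rintro _ (rfl | rfl) g
    exacts [Or.inl (by simp), Or.inr (by rw [(hc g).eq, mul_inv_cancel_right])]⟩
  exact ⟨K, hn, QuotientGroup.mk'_surjective K, h2, hc, fun x hx => (QuotientGroup.eq_one_iff x).mp hx,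
    (QuotientGroup.eq_one_iff z).mpr (Or.inr rfl)⟩

namespace HNR

open G R

variable {G : Type*} [Group G] {d : G} {E F : P →* G}

/-- A word of the classes that fuse, with a conjugating word. -/
noncomputable def dChk (e : List ℕ × List ℕ) : Bool :=
  peq e.2 [1, 1] || pcj e.1 jw e.2 || pcj e.1 (jw ++ [5]) e.2

/-- A word of the classes that do not fuse, with a conjugating word. -/
noncomputable def nChk (e : List ℕ × List ℕ) : Bool :=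
  peq e.2 [] || pcj e.1 (jw ++ [1, 1]) e.2 || pcj e.1 [5] e.2

theorem Ch.dOf (h : Ch d ee zz F) {e : List ℕ × List ℕ} (c : dChk e = true) :
    IsConj d (F (pw e.2)) := by
  simp only [HNR.dChk, Bool.or_eq_true] at c
  rcases c with (c | c) | c
  exacts [peq_spec c ▸ h.dτ, h.dj.trans (F.map_isConj (pcj_conj c)),
    h.du.trans (F.map_isConj (pcj_conj c))]

theorem Ch.nOf (h : Ch d ee zz F) {e : List ℕ × List ℕ} (c : nChk e = true) :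
    ¬ IsConj d (F (pw e.2)) := fun x => by
  simp only [HNR.nChk, Bool.or_eq_true] at c
  rcases c with (c | c) | c
  · exact h.n1 (by rwa [peq_spec c, show pw [] = 1 from rfl, map_one] at x)
  · exact h.nz (x.trans (F.map_isConj (by have := pcj_conj c; rwa [pw_append] at this)).symm)
  · exact h.nv (x.trans (F.map_isConj (pcj_conj c)).symm)

/-- An element of order three. -/
def u2w : List ℕ := [5,6,6,5,7,7]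

/-- The stabiliser of two points. -/
def L192 : List (List ℕ) := [[5,7,4,4,4,6,6,6,5,7,7,5], [5,6,6,5,7,7,5], [5,7,4,4,4,6,6,6,5,7,7], [5,6,6,5,7,7], [5,6,6,5,7,7,1,7,4,4,7,3,6,6,3], [1,3,7,3,3,7,3,5,4,5,3,3,7,3], [5,6,6,5,7,7,5,1,7,4,4,7,3,6,6,3], [1,3,7,3,3,7,5,3,5,4,5,3,3,7,3], [1,3,3,3,6,4,4,6,5,4,5,7,4,4,6,5], [1,3,3,3,6,4,4,6,5,4,5,7,3,6,5], [7,3,3,3,7,5,7,7,5,7,7], [7,7,5,7,7,5,7,7], [1,3,3,3,6,4,4,6,4,5,7,4,4,6,5], [1,3,3,3,6,4,4,6,4,5,7,3,6,5], [7,3,3,3,7,5,6,6,6,6,5,6,6,5,6,6], [6,6,5,7,7,7,7,5,7,7,5,7,7], [], [7,3,3,3,6], [3,5,4,6,3,3,5,4,4,4,5,4,7,5,6,4,7], [5,1,7,4,4,7,3,6,6,3,7,7,5,7,7,5,7,7,5], [7,4,4,4,6,6,6,5,7,7], [6,6,5,7,7], [5,1,3,3,3,6,4,4,6,4,5,7,3,6,5], [3,5,4,6,3,3,5,3,3,3,5,4,4,7], [7,3,3,3,7,5,7,7,5,7,7,5], [7,7,5,7,7,5,7,7,5], [1,3,3,3,6,4,4,6,5,4,5,7,4,4,6], [1,3,3,3,6,4,4,6,5,4,5,7,3,6],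 [7,3,3,6,5,1,3,7,3,3,7,3,6,6], [7,4,6,5,1,3,7,3,3,7,3,6,6], [6,4,4,7,5,4,4,6,6,4,7,5,7,3,6], [6,6,5,7,7,7,7,5,7,7,5,7,7,5], [5,6,6,6,3,3,3,7,5,7,7,5], [5,6,4,4,7,5,6,4,7,5], [5,6,6,5,6,3,3,3,7,7,7], [5,6,4,4,7,5,6,4,7], [5,6,4,4,7,5,6,4,7,1,7,4,4,7,3,6,6,3], [5,6,6,5,7,7,1,6,3,3,6,4,7,7,4], [3,5,4,5,6,6,5,7,7,4,7,7,4,4,7,7,7,3], [5,6,6,5,7,7,5,1,6,3,3,6,4,7,7,4], [5], [7,3,3,3,6,5], [7,4,4,4,6,6,6,5,7,7,5], [6,6,5,7,7,5], [5,1,3,7,3,3,7,3,6,4,7,5,7,7,5,7,7], [5,6,6,5,6,6,5,6,6,1,7,4,4,7,3,6,6,3], [5,7,4,6,5,1,3,7,3,3,7,3,6,6], [5,7,3,3,6,5,1,3,7,3,3,7,3,6,6], [5,7,7,5,6,6,5,1,6,3,3,6,4,7,7,4], [4,6,6,6,3,3,6,6,3,6,6,5,7,5,4,5,6,4], [5,3,5,4,6,3,3,5,3,3,3,5,3,7], [5,7,3,6,5,6,3,3,5,4,4,7,5,7,3,3,6], [7,7,5,7,7,5,6,3,3,3,7,7,7], [7,7,5,7,7,5,7,3,3,3,7], [5,7,4,6,5,3,5,3,7,7,3,6,6,4,7], [6,4,4,7,5,6,4,7,7,7,5,7,7,5,7,7],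 [6,3,3,3,7], [6,6,6,3,3,3,7,7,7], [1,3,3,3,6,4,4,6,3,7,7,3,6,6,4,7], [3,5,4,6,3,3,5,3,6,5,6,3,3,3,7,7,7,3,5,4], [7,3,6,5,6,3,3,5,4,4,7,5,7,3,3,6], [3,5,4,6,3,3,5,3,3,3,5,3,7], [6,6,5,6,3,3,3,7,7,7], [6,4,4,7,5,6,4,7], [5,7,7,5,6,6,5,6,4,4,7,5,6,4,7], [6,6,5,6,3,3,3,7,7,7,5,7,7,5,6,6,5], [5,1,3,3,3,6,4,4,6,4,7,3,6,6,3,3,3,7,5], [7,7,5,7,7,5,7,7,1,6,3,3,6,4,7,7,4], [6,3,3,3,7,5,7,7,5,6,6,5], [5,7,3,3,6,5,7,3,6,6,3,3,3,7,5], [5,7,4,6,1,3,7,3,3,7,3,6,6,5,6,4,4,7,5,6,4,7], [3,5,4,5,6,6,5,6,6,3,7,4,6,3,3,3,6,4,7,4,7], [5,7,4,6,3,3,7,7,3,6,6,4,7], [6,3,3,3,6,5,6,6,5,6,6,5], [6,3,3,3,6,5,6,6,5,6,6,1,7,4,4,7,3,6,6,3], [6,6,5,6,6,5,6,6,1,6,3,3,6,4,7,7,4], [7,7,5,6,6,1,6,3,3,6,4,7,7,4], [7,3,3,3,7,5,6,6,1,6,3,3,6,4,7,7,4], [6,3,3,3,7,7,7,5,6,6,5], [7,3,3,6,5,7,3,6,6,3,3,3,7,5], [1,3,7,3,3,7,3,6,4,6,5], [5,1,7,4,4,7,3,6,6,3],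 [5,6,6,5,6,6,5,6,6], [5,6,6,5,6,6,5,6,3,3,3,6], [1,3,7,3,3,7,5,3,6,3,3,6,5], [1,3,7,3,3,7,5,3,6,4,6,5], [5,6,6,5,7,7,5,7,3,3,3,7,5,6,6], [7,7,5,6,6,5,6,6,5,7,7,5], [5,7,7,5,6,6], [5,7,3,3,3,7,5,6,6], [5,7,4,6,1,3,7,3,3,7,3,6,6], [5,7,3,3,6,1,3,7,3,3,7,3,6,6], [6,6,5,7,7,5,7,7,5,6,6], [6,6,5,7,7,5,7,3,3,3,7,5,6,6], [6,6,5,7,7,5,7,4,6,1,3,7,3,3,7,3,6,6], [6,6,5,7,7,5,7,3,3,6,1,3,7,3,3,7,3,6,6], [3,5,4,5,3,6,6,4,7,4,4,4,7,7,5,7,7,7,4,6], [5,1,3,3,3,6,4,4,6,3,7,7,3,6,6,4,7], [7,7,5,6,6,5,1,6,3,3,6,4,7,7,4], [1,7,4,4,7,3,6,6,3,6,4,4,7,5,6,4,7,5], [6,6,6,3,3,3,7,5,6,6,5,6,6], [6,3,3,3,6,5,6,6,5,6,6], [6,3,3,3,7,7,7,5,6,6], [6,3,3,3,7,7,3,3,3,7,5,6,6], [6,3,7,4,4,6,6,4,7,5,7,3,6], [7,7,5,7,7,5,7,3,3,3,7,5], [5,3,5,4,6,3,3,5,3,3,3,5,3,7,5], [6,3,3,3,7,7,4,6,5,1,3,7,3,3,7,3,6,6], [5,7,7,5,6,6,1,6,3,3,6,4,7,7,4], [1,7,4,4,7,3,6,6,3,5,6,4,4,7,5,6,4,7],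 [7,4,6,5,3,5,3,7,7,3,6,6,4,7], [7,3,3,6,5,3,5,3,7,7,3,6,6,4,7], [6,3,3,3,7,5], [5,6,6,6,3,3,3,7,7,7], [6,6,6,3,3,3,7,5,7,7,5], [6,4,4,7,5,6,4,7,5], [7,3,6,5,6,3,3,5,4,4,7,5,7,3,3,6,5], [3,5,4,6,3,3,5,3,3,3,5,3,7,5], [3,5,4,6,6,5,7,3,3,5,3,3,3,5,3,7,5], [7,3,6,6,6,5,6,6,3,3,3,6,3,7,7,4,5,3,5,4], [1,3,7,3,3,7,3,6,4,6], [1,7,4,4,7,3,6,6,3], [1,3,7,3,3,7,5,3,6,3,3,6], [1,3,7,3,3,7,5,3,3,7,3], [5,6,6,5,6,6,5,6,6,5], [5,6,6,5,6,6,5,6,3,3,3,6,5], [7,3,3,3,7,5,6,6,5,6,6,5,7,7], [7,7,5,6,6,5,6,6,5,7,7], [5,1,3,3,3,6,4,4,6,4,7,3,6,5], [5,1,3,3,3,6,4,4,6,4,7,4,4,6,5], [5,7,7,5,6,6,5], [5,7,4,6,5,7,4,4,6,5], [6,6,5,7,7,5,7,7,5,6,6,5], [5,7,3,3,3,7,5,6,6,5,6,6,5,7,7], [5,6,6,5,7,7,5,7,4,6,1,3,7,3,3,7,3,6,6], [1,3,7,3,3,7,5,3,3,7,3,6,6,5,6,6,5,6,6], [5,6,3,3,3,7,7,4,6,1,3,7,3,3,7,3,6,6], [7,7,5,7,7,5,7,7,5,1,6,3,3,6,4,7,7,4],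 [6,4,4,7,5,6,4,7,5,7,7,5,6,6], [6,6,5,6,3,3,3,7,7,7,5,7,7,5,6,6], [6,3,3,3,7,5,7,7,5,6,6], [6,3,3,3,7,5,7,3,3,3,7,5,6,6], [7,4,6,1,3,7,3,3,7,3,6,6,5,6,4,4,7,5,6,4,7], [1,3,7,3,3,7,5,3,5,6,3,6,3,3,7,7,3,6,6,4,7], [6,6,5,6,6,5,6,6,1,7,4,4,7,3,6,6,3], [1,3,7,3,3,7,3,6,4,7,5,7,7,5,7,7], [7,3,6,3,5,4,1,3,3,3,6,4,4,6,4], [7,7,5,6,6,1,7,4,4,7,3,6,6,3], [7,7,5,6,6,5], [7,4,6,5,7,4,4,6,5], [6,6,5,6,6,5,6,3,3,3,6,5], [6,6,5,6,6,5,6,6,5], [5,1,6,3,3,6,4,7,7,4], [6,3,3,3,7,5,1,7,4,4,7,3,6,6,3], [7,3,6,5,6,4,5,4,4,7,3,5,4,5,7,4,6], [7,7,5,6,6,5,6,4,4,7,5,6,4,7,5], [7,3,3,6,5,3,3,7,7,3,6,6,4,7], [7,4,6,5,3,3,7,7,3,6,6,4,7], [6,4,4,7,5,6,4,7,5,1,7,4,4,7,3,6,6,3], [6,6,5,7,7,5,1,6,3,3,6,4,7,7,4], [1,6,3,3,6,4,7,7,4], [6,3,3,3,7,1,7,4,4,7,3,6,6,3], [7,3,3,6,3,3,7,7,3,6,6,4,7], [7,4,6,3,3,7,7,3,6,6,4,7], [7,7,5,6,6,5,6,6,5,6,3,3,3,7,7,7],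 [7,7,5,6,6,5,6,4,4,7,5,6,4,7], [6,4,4,7,5,6,4,7,1,7,4,4,7,3,6,6,3], [6,6,5,7,7,1,6,3,3,6,4,7,7,4], [1,7,4,4,7,3,6,6,3,7,7,5,7,7,5,7,7,5], [1,3,7,3,3,7,3,6,4,7,5,7,7,5,7,7,5], [1,3,7,3,3,7,3,6,4,6,6,6,5,7,7,5], [7,7,5,6,6,5,1,7,4,4,7,3,6,6,3], [7,7,5,6,6], [7,3,3,3,7,5,6,6], [6,6,5,6,6,5,6,3,3,3,6], [6,6,5,6,6,5,6,6], [5,7,7,5,7,7,5,7,7,5], [3,3,7,7,3,6,6,3,3,7,7,4,4,6], [5,7,7,5,7,7,5,7,7], [5,7,3,3,6,5,4,6,4,7,7,5,7,7], [1,3,3,3,6,4,4,6,4,7,4,4,6,5], [1,3,3,3,6,4,4,6,4,7,3,6,5], [7,3,3,6,1,3,7,3,3,7,3,6,6], [7,4,6,1,3,7,3,3,7,3,6,6], [6,3,7,4,4,6,6,4,7,7,4,4,6], [6,3,7,4,4,6,6,4,7,7,3,6], [6,3,3,3,7,7,3,3,6,1,3,7,3,3,7,3,6,6], [6,3,3,3,7,7,4,6,1,3,7,3,3,7,3,6,6], [5,7,7,5,7,7,5,7,3,3,3,7], [6,3,7,4,4,6,6,4,7,7,3,6,5], [5,7,7,5,7,7,5,7,7,1,6,3,3,6,4,7,7,4], [1,3,3,3,6,4,4,6,4,7,3,6,6,3,3,3,7,5]]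

theorem fx22 {y : Grp} (h1 : Commute y (evL ev jw)) (h2 : Commute y (evL ev u2w)) :
    ∃ w ∈ L192, y = evL ev w ∨ y = evL ev (w ++ iw) := by
  have en : ∀ y : Grp, Commute y (evL ev jw) → Commute y (evL ev [6,3,3,3,7]) → ∃ w ∈ L192, evL ev w = y :=
    fun y a b => hφ.enum (bs := bs) ub1 (fun w hw => hφ.mem_fixS (by decide) (List.all_eq_true.mp
      (by decide +kernel : L192.all (fixB img 8 [22, 0]) = true) w hw)) (by decide +kernel)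
      (tm.fix (S := [(22, [7,7], [6,3,3,3,7]), (0, [], jw)]) (by decide +kernel)
        (List.forall_mem_cons.mpr ⟨b, List.forall_mem_singleton.mpr a⟩))
  have pc : ∀ u w, peq (u ++ w) (w ++ u) = true → Commute (evL ev u) (evL ev w) := fun u w h => by
    simpa only [π0_pw] using (pcm_spec h).map π0
  have c0 : ∀ w, Commute y (evL ev w) → peq (w ++ [6,3,3,3,7]) ([6,3,3,3,7] ++ w) = true →
      Commute (evL ev w) (y⁻¹ * evL ev [6,3,3,3,7] * y) := fun w a b => by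
    have := commute_cj (pc _ _ b) y
    rwa [cj_of_commute a] at this
  obtain ⟨e, he, e1⟩ := tm.cand (cm := [jw, u2w]) (nc := []) (L := [(0, [], jw), (22, [7,7], [6,3,3,3,7]), (20, [6,6], [7,7,7,3,3,3,6,6,6])])
    (by decide +kernel) (y := y⁻¹ * evL ev [6,3,3,3,7] * y)
    (IsConj.trans (by
      simpa only [π0_pw] using π0.map_isConj (pcj_conj (k := [7,7]) (u := jw) (w := [6,3,3,3,7])
        (by decide +kernel))) (isConj_cj _ _))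
    (List.forall_mem_cons.mpr ⟨c0 _ h1 (by decide +kernel),
      List.forall_mem_singleton.mpr (c0 _ h2 (by decide +kernel))⟩) (by simp)
  simp only [List.mem_cons, List.not_mem_nil, or_false] at he
  rcases he with rfl | rfl | rfl
  · exfalso
    rw [← cj_of_commute h1] at e1
    refine hφ.mov (bs := bs) (w := [6,3,3,3,7] ++ jw) (by decide +kernel) ?_
    rw [evL_append, mul_left_cancel (mul_right_cancel e1), tm.sq]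
  · obtain ⟨w, hw, e⟩ := en y h1 (commute_of_cj e1)
    exact ⟨w, hw, Or.inl e.symm⟩
  · have a : (evL ev iw)⁻¹ * evL ev [6,3,3,3,7] * evL ev iw = evL ev [7,7,7,3,3,3,6,6,6] := by
      rw [← evL_invW hev, ← evL_append, ← evL_append]
      exact tm.eq (by decide +kernel)
    obtain ⟨w, hw, e⟩ := en (y * (evL ev iw)⁻¹) (h1.mul_left (pc _ _ (by decide +kernel)).inv_left)
      (commute_of_cj (by
        rw [show (y * (evL ev iw)⁻¹)⁻¹ * evL ev [6,3,3,3,7] * (y * (evL ev iw)⁻¹) =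
          evL ev iw * (y⁻¹ * evL ev [6,3,3,3,7] * y) * (evL ev iw)⁻¹ by group, e1, ← a]
        group))
    exact ⟨w, hw, Or.inr (by rw [evL_append, e, inv_mul_cancel_right])⟩

/-- Involutions of the small centraliser. -/
def LV : List (List ℕ × List ℕ) := [([], [1,1]), ([], [7,3,3,3,6]), ([1,7,7,4,6,3,6,6,3,6], [5,6,6,5,7,7,5,7,4,6,1,3,7,3,3,7,3,6,6]), ([1,7,4,4,7,4,7,7,7,3,6,3,7,4,4,6,6,4,7,1,7,7,4,6,3,6,6,3,6], [1,3,3,3,6,4,4,6,5,4,4,6,4,7,7,5,7,7,5]), ([3,5,6,6,6,5,7,7,5,4], [1,3,7,3,3,7,5,3,3,7,3,6,6,5,6,6,5,6,6]), ([1,7,4,4,7,4,7,7,7,3,6,3,7,4,4,6,6,4,7,3,5,6,6,6,5,7,7,5,4], [5,6,6,5,7,7,5,7,3,3,6,1,3,7,3,3,7,3,6,6])]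

/-- Involutions of the small centraliser. -/
def LX : List (List ℕ × List ℕ) := [([6,6], [6,3,3,3,7]), ([7,7], [6,6,6,3,3,3,7,7,7]), ([3,3,6,4,7,3,6,3], [3,5,4,5,6,6,5,6,6,3,7,4,6,3,3,3,6,4,7,4,7]), ([1,7,4,4,7,4,7,7,7,3,6,3,7,4,4,6,6,4,7,3,3,6,4,7,3,6,3], [6,6,5,7,7,7,7,5,7,7,5,7,7,1,6,3,3,6,4,7,7,4])]

/-- Involutions of the small centraliser. -/
def LN : List (List ℕ × List ℕ) := [([], []), ([7,7], [1,1,6,3,3,3,7]), ([], [1,1,7,3,3,3,6]), ([3,5,3,6,6,4], [4,5,6,4,7,5,3,5,3,1]), ([1,7,4,4,7,4,7,7,7,3,6,3,7,4,4,6,6,4,7,3,5,3,6,6,4], [1,4,5,4,5,6,3,7,5,3]), ([6,6], [1,1,6,6,6,3,3,3,7,7,7]), ([1,7,4,4,7,4,7,7,7,3,6,3,7,4,4,6,6,4,6,5,3,3], [1,4,6,5,4,5,7,5,4,4,6]), ([6,6,5,3,3], [7,3,3,5,6,6,5,4,5,3,1]), ([3,3,6,4,7,3,6,3], [5,7,4,6,1,3,7,3,3,7,3,6,6,5,6,4,4,7,5,6,4,7]), ([1,7,4,4,7,4,7,7,7,3,6,3,7,4,4,6,6,4,7,3,3,6,4,7,3,6,3],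 [1,3,3,3,6,4,4,6,4,7,3,6,5,6,4,4,7,5,6,4,7,5])]

theorem enum96 {p : P} (h1 : Commute p j0) (h2 : Commute p (pw u2w)) (h3 : p * p = 1) :
    ∃ l ∈ LV ++ LX ++ LN, p = pw l.2 := by
  obtain ⟨w, hw, e⟩ := fx22 (y := π0 p) (by simpa only [π0_pw, j0] using h1.map π0)
    (by simpa only [π0_pw] using h2.map π0)
  have c := List.all_eq_true.mp (by decide +kernel : L192.all (fun w => pne (w ++ u2w) (u2w ++ w) ||
    [[], [1, 1], iw, iw ++ [1, 1]].all fun s => pne (w ++ s ++ (w ++ s)) [] ||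
      (LV ++ LX ++ LN).any fun l => peq (w ++ s) l.2) = true) w hw
  obtain ⟨s, hs, rfl⟩ : ∃ s ∈ [[], [1, 1], iw, iw ++ [1, 1]], p = pw (w ++ s) := by
    rcases e with e | e <;> rcases dc.eq (e.trans (π0_pw _).symm) with e | e
    exacts [⟨[], by simp, by rwa [List.append_nil]⟩, ⟨[1, 1], by simp, by rwa [pw_append]⟩,
      ⟨iw, by simp, e⟩, ⟨iw ++ [1, 1], by simp, by rwa [← List.append_assoc, pw_append]⟩]
  simp only [Bool.or_eq_true, List.all_eq_true, List.any_eq_true] at c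
  rcases c with c | c
  · refine absurd ?_ (pnc_spec c)
    have := h2.mul_left (pcm_spec (List.all_eq_true.mp (by decide +kernel :
      [[], [1, 1], iw, iw ++ [1, 1]].all (fun s => peq (s ++ u2w) (u2w ++ s)) = true) s hs)).inv_left
    rwa [pw_append, mul_inv_cancel_right] at this
  rcases c s hs with c | ⟨l, hl, c⟩
  · exact absurd ((pw_append _ _).trans h3) (pne_spec c)
  · exact ⟨l, hl, peq_spec c⟩

/-- The sixteen words with conjugating words. -/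
def EW : List (List ℕ × List ℕ) := [([], []), ([], [7,3,3,3,6]), ([4,4,6,6], [4,6,6,3,3,3,6,3,3,6,4,7]), ([4,7,3,3,7], [7,4,4,7,3,6,4,4,4,6,3,3,6,4,7]), ([], [1,1]), ([], [7,4,4,4,6,2,2]), ([4,4,6,6], [4,6,6,3,3,3,6,3,3,6,2,7,4,2]), ([4,7,3,3,7], [7,4,4,7,3,6,4,4,4,6,3,3,6,2,7,4,2]), ([], [5]), ([], [7,4,4,4,6,5]), ([4,7,4,7], [4,6,6,3,3,3,6,3,5,3,6,4,7]), ([4,7,3,3,7], [7,4,4,7,3,6,4,4,4,6,3,5,3,6,4,7]), ([1,7,4,4,7,4,7,7,7,3,6,3,7,4,4,6,6,4,7], [1,5,2]), ([1,7,4,4,7,4,7,7,7,3,6,3,7,4,4,6,6,4,7], [7,4,4,4,6,1,5,2]), ([1,7,4,4,7,4,7,7,7,3,6,3,7,4,4,6,6,4,7,4,7,4,7], [4,6,6,3,3,3,6,3,5,3,6,2,7,4,2]), ([1,7,4,4,7,4,7,7,7,3,6,3,7,4,4,6,6,4,7,4,7,3,3,7], [7,4,4,7,3,6,4,4,4,6,3,5,3,6,2,7,4,2])]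

theorem Ch.fake [Finite G] (h : Ch d ee zz F) : False := by
  obtain ⟨E0, hE0, tr⟩ := h.rig2
  have hE := hE0.move 1 (pw [3,7,3])⁻¹
  have mm : ∀ u w v, pcj [3,7,3] u (subst aσ w) = true → peq (subst cσ w) v = true →
      mv E0 1 (pw [3,7,3])⁻¹ (pw u) = F (pw v) := fun u w v a b => by
    rw [mv_apply, inv_inv, pcj_spec a, tr, peq_spec b, inv_one, one_mul, mul_one]
  have e1 := mm [1, 1] [5] jw (by decide +kernel) (by decide +kernel)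
  have e2 := mm (jw ++ [1, 1]) [3, 5] [5] (by decide +kernel) (by decide +kernel)
  have e3 := mm u2w [4,1,2,4] [7,4,4,7,3,6,6,3,3,6,6,3] (by decide +kernel) (by decide +kernel)
  generalize mv E0 1 (pw [3,7,3])⁻¹ = E at hE e1 e2 e3
  let N : Subgroup G := Subgroup.centralizer {F (pw [7,4,4,7,3,6,6,3,3,6,6,3]), F (pw [5])}
  have mN : ∀ {g}, g ∈ N ↔ Commute g (F (pw [7,4,4,7,3,6,6,3,3,6,6,3])) ∧ Commute g (F (pw [5])) := fun {g} => by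
    simp only [N, Subgroup.mem_centralizer_iff, Set.mem_insert_iff, Set.mem_singleton_iff,
      forall_eq_or_imp, forall_eq]
    exact ⟨fun a => ⟨a.1.symm, a.2.symm⟩, fun a => ⟨a.1.symm, a.2.symm⟩⟩
  have mF : ∀ w, (peq (w ++ [7,4,4,7,3,6,6,3,3,6,6,3]) ([7,4,4,7,3,6,6,3,3,6,6,3] ++ w) && peq (w ++ [5]) ([5] ++ w)) = true → F (pw w) ∈ N :=
    fun w a => by
      rw [Bool.and_eq_true] at a
      exact mN.mpr ⟨(pcm_spec a.1).map F, (pcm_spec a.2).map F⟩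
  have mE : ∀ v, F (pw (EW.getD v ([], [])).2) ∈ N := fun v => by
    by_cases hv : v < 16
    · exact mF _ (allB_spec (by decide +kernel : allB (fun v => peq ((EW.getD v ([], [])).2 ++ [7,4,4,7,3,6,6,3,3,6,6,3])
        ([7,4,4,7,3,6,6,3,3,6,6,3] ++ (EW.getD v ([], [])).2) && peq ((EW.getD v ([], [])).2 ++ [5])
          ([5] ++ (EW.getD v ([], [])).2)) 16 = true) v hv)
    · rw [List.getD_eq_default _ _ (by show 16 ≤ v; omega)]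
      exact mF _ (by decide +kernel)
  let e : ℕ → N := fun v => ⟨_, mE v⟩
  obtain ⟨K, hK, C⟩ := dc_quot (z := e 8) (Subtype.ext (by
    show F zz * F zz = 1
    rw [← map_mul, zz_sq, map_one])) fun x => Subtype.ext (mN.mp x.2).2
  have mP : ∀ w, (peq (w ++ u2w) (u2w ++ w) && peq (w ++ (jw ++ [1, 1])) (jw ++ [1, 1] ++ w)) = true →
      E (pw w) ∈ N := fun w a => by
    rw [Bool.and_eq_true] at a
    exact mN.mpr ⟨e3 ▸ (pcm_spec a.1).map E, e2 ▸ (pcm_spec a.2).map E⟩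
  have key : ∀ y : N, IsConj d y.1 → Commute y (e 1) → ∃ l ∈ LV ++ LX, y.1 = E (pw l.2) := by
    intro y a b
    obtain ⟨p, hp⟩ := hE.surj y.1 (e1.symm ▸ congrArg Subtype.val b)
    have c := mN.mp y.2
    rw [← e3, ← e2, ← hp, hE.comm, hE.comm, pw_append] at c
    obtain ⟨l, hl, e⟩ := enum96 (p := p) (by
      have := c.2.mul_right (τ_cen p)
      rwa [← τ_eq, mul_assoc, τ_sq, mul_one] at this) c.1
      (hE.inj (by rw [map_mul, hp, map_one]; exact sq_of_isConj h.d2 a))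
    rcases List.mem_append.mp hl with hl | hl
    · exact ⟨l, hl, by rw [← hp, e]⟩
    · exact absurd (by rwa [← hp, e] at a) (hE.nOf (List.all_eq_true.mp
        (by decide +kernel : LN.all nChk = true) l hl))
  let t : N := ⟨_, mP [4,5,6,4,7,5,3,5,3,1] (by decide +kernel)⟩
  have nt : ∀ k w, nChk (k, [4,5,6,4,7,5,3,5,3,1] ++ w) = true → ¬ IsConj d (E (pw [4,5,6,4,7,5,3,5,3,1]) * E (pw w)) := fun k w a => by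
    rw [← map_mul, ← pw_append]; exact hE.nOf a
  refine fake_core C (fun y => IsConj d y.1) (fun a g x => x.trans (isConj_cj a.1 g.1))
    (fun a x => Subtype.ext (sq_of_isConj h.d2 x)) (fun u hu v hv => Subtype.ext ?_) (fun v hv => ?_)
    (r := ⟨_, mF [3,7,3,7,4,6,3] (by decide +kernel)⟩) (x := ⟨_, mF [4,7,5,7,4,2,3,6,6,3] (by decide +kernel)⟩) (t := t)
    (fun v hv => Subtype.ext ?_)
    (L := (LV ++ LX).attach.map fun l => ⟨_, mP l.1.2 (List.all_eq_true.mp (by decide +kernel :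
      (LV ++ LX).all (fun l => peq (l.2 ++ u2w) (u2w ++ l.2) &&
        peq (l.2 ++ (jw ++ [1, 1])) (jw ++ [1, 1] ++ l.2)) = true) l.1 l.2)⟩)
    (by rw [List.length_map, List.length_attach]; decide) (fun y a b => ?_) (fun y a b => ?_)
    (Subtype.ext ?_) (Subtype.ext ?_) (hE.nOf (e := ([3,5,3,6,6,4], [4,5,6,4,7,5,3,5,3,1])) (by decide +kernel)) ?_ ?_ ?_
    (fun y a b => ?_) fun a => ?_
  · exact (congrArg F ((peq_spec (allB_spec (allB_spec (by decide +kernel : allB (fun u => allB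
      (fun v => peq (EW.getD (u ^^^ v) ([], [])).2 ((EW.getD u ([], [])).2 ++ (EW.getD v ([], [])).2))
        16) 16 = true) u hu) v hv)).trans (pw_append _ _))).trans (map_mul F _ _)
  · have := allB_spec (by decide +kernel : allB (fun v =>
      bif [1, 2, 3, 9, 10, 11, 4, 13, 14, 15].elem v then dChk (EW.getD v ([], []))
      else nChk (EW.getD v ([], []))) 16 = true) v hv
    by_cases a : v ∈ [1, 2, 3, 9, 10, 11, 4, 13, 14, 15]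
    · rw [List.elem_eq_true_of_mem a, cond_true] at this
      exact iff_of_true (h.dOf this) a
    · rw [List.elem_eq_mem, decide_eq_false a, cond_false] at this
      exact iff_of_false (h.nOf this) a
  · show (F _)⁻¹ * F _ * F _ = F _
    rw [← map_inv, ← map_mul, ← map_mul, pcj_spec (allB_spec (by decide +kernel : allB (fun v =>
      pcj [3,7,3,7,4,6,3] (EW.getD v ([], [])).2 (EW.getD (rot v) ([], [])).2) 16 = true) v hv)]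
  · obtain ⟨l, hl, c⟩ := key y a b
    exact List.mem_map.mpr ⟨⟨l, hl⟩, List.mem_attach _ _, Subtype.ext c.symm⟩
  · obtain ⟨l, hl, c⟩ := key y a b
    have c1 : (y * e 8).1 = E (pw (l.2 ++ (jw ++ [1, 1]))) := by
      rw [pw_append, map_mul, ← c, e2]; rfl
    have c2 : (t⁻¹ * y * t).1 = E ((pw [4,5,6,4,7,5,3,5,3,1])⁻¹ * pw l.2 * pw [4,5,6,4,7,5,3,5,3,1]) := by
      rw [map_mul, map_mul, map_inv, ← c]; rfl
    rcases List.mem_append.mp hl with hl | hl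
    · have := List.all_eq_true.mp (by decide +kernel : LV.all (fun l =>
        dChk (l.1, l.2 ++ (jw ++ [1, 1])) && (pcj [4,5,6,4,7,5,3,5,3,1] l.2 l.2 || pcj [4,5,6,4,7,5,3,5,3,1] l.2 (l.2 ++ (jw ++ [1, 1])))) =
          true) l hl
      rw [Bool.and_eq_true, Bool.or_eq_true] at this
      refine ⟨fun _ => this.2.imp (fun x => Subtype.ext ?_) fun x => Subtype.ext ?_,
        fun x => absurd (c1 ▸ hE.dOf this.1) x⟩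
      · rw [c2, pcj_spec x, c]
      · rw [c2, pcj_spec x, c1]
    · have := List.all_eq_true.mp (by decide +kernel : LX.all (fun l =>
        nChk (l.1, l.2 ++ (jw ++ [1, 1])) && pne ([4,5,6,4,7,5,3,5,3,1] ++ l.2) (l.2 ++ [4,5,6,4,7,5,3,5,3,1])) = true) l hl
      rw [Bool.and_eq_true] at this
      refine ⟨fun x => absurd (c1 ▸ x) (hE.nOf this.1), fun _ x => pnc_spec this.2 (hE.comm.mp ?_)⟩
      rw [← c]
      exact congrArg Subtype.val (commute_of_cj x)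
  · show E _ * E _ = 1
    rw [← map_mul, ← pw_append, peq_spec (w := []) (by decide +kernel)]
    exact map_one E
  · show Commute (E _) (F (pw jw))
    rw [← e1, hE.comm]; exact τ_cen _
  · show ¬ IsConj d (E _ * F (pw [5]))
    rw [← e2]; exact nt [1,7,4,4,7,4,7,7,7,3,6,3,7,4,4,6,6,4,6,5,3,3] _ (by decide +kernel)
  · show ¬ IsConj d (E _ * F (pw jw))
    rw [← e1]; exact nt [1,7,4,4,7,4,7,7,7,3,6,3,7,4,4,6,6,4,7,3,5,3,6,6,4] _ (by decide +kernel)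
  · show ¬ IsConj d (E _ * F (pw jw) * F (pw [5]))
    rw [← e1, ← e2, mul_assoc, ← map_mul, ← pw_append]; exact nt [6,6,5,3,3] _ (by decide +kernel)
  · obtain ⟨p, hp⟩ := h.surj y.1 (congrArg Subtype.val a)
    have c : y.1⁻¹ * F j0 * y.1 = F j0 * F zz := congrArg Subtype.val b
    rw [← hp, ← map_inv, ← map_mul, ← map_mul, ← map_mul] at c
    have := (inn_conj (h.inj c ▸ isConj_cj j0 p)).mp inn_j0
    exact out_ee (by rwa [ee, pw_append])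
  · have c : Commute ((F (pw [4,7,5,7,4,2,3,6,6,3]))⁻¹ * F j0 * F (pw [4,7,5,7,4,2,3,6,6,3])) (F j0) := congrArg Subtype.val a
    rw [← map_inv, ← map_mul, ← map_mul, h.comm, ← pw_inv, j0, ← pw_append, ← pw_append] at c
    exact pnc_spec (by decide +kernel) c

end HNR

end Cfsg.H6
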