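import Cfsg.Agent.H6.HNR.NI.Main
import Cfsg.Agent.H6.HNR.L3

/-! The normal elementary abelian subgroup of the model. -/

set_option autoImplicit false
set_option maxRecDepth 100000

namespace Cfsg.H6.HNR.NI

open N

/-- The word of the involution. -/
def tw : List ℕ := [1,2,1,2,1,2,1,2,1,2,1,2,1,2,1,2,1,2,1,3,3,3]

/-- The word of an element whose lifts have order four. -/
def ww : List ℕ := [3,1,3,1,3,1,3,1,3,1]

theorem hea : EA (evS ev sg) 8 := ea_of_chk hev ora ea

theorem hlin : Lin (evS ev sg) 8 A 16 := lin_of_chk hev ora hea fun x h1 h2 => by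
  interval_cases x
  exacts [li1, li2, li3, li4, li5, li6, li7, li8, li9, li10, li11, li12, li13, li14, li15]

theorem neq {u w : List ℕ} (h : chk (u ++ invW 17213620480 w) = true) : evL ev u = evL ev w := by
  have := ora _ h
  rwa [evL_append, evL_invW hev, mul_inv_eq_one] at this

theorem sq (v : ℕ) : evL (evS ev sg) (bw v 8) * evL (evS ev sg) (bw v 8) = 1 := by
  rw [← hea.xor v v 8 le_rfl, Nat.xor_self, bw_zero, evL_nil]

/-- The elementary abelian subgroup. -/
def E : Subgroup Grp where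
  carrier := {x | ∃ v, x = evL (evS ev sg) (bw v 8)}
  one_mem' := ⟨0, by rw [bw_zero, evL_nil]⟩
  mul_mem' := by
    rintro _ _ ⟨u, rfl⟩ ⟨v, rfl⟩
    exact ⟨_, (hea.xor u v 8 le_rfl).symm⟩
  inv_mem' := by
    rintro _ ⟨u, rfl⟩
    exact ⟨u, inv_eq_of_mul_eq_one_right (sq u)⟩

theorem E_sq : ∀ x ∈ E, x * x = 1 := by
  rintro _ ⟨v, rfl⟩
  exact sq v

theorem exists_w (g : Grp) : ∃ w, inR 5 w = true ∧ evL ev w = g := by
  obtain ⟨w, rfl⟩ := exists_word hev (X := X) (x := g) (hX ▸ Subgroup.mem_top g)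
  exact exists_wordR hev.zero (fun l h => hev.eq_one (m := 5) (by norm_num) h) w

theorem shift {w : List ℕ} (h : inR 5 w = true) :
    inR 16 (w.map (· + 11)) = true ∧ evL (evS ev sg) (w.map (· + 11)) = evL ev w := by
  refine ⟨List.all_eq_true.mpr fun x hx => ?_, ?_⟩
  · obtain ⟨y, hy, rfl⟩ := List.mem_map.mp hx
    have := inR_spec h y hy
    simp only [Bool.and_eq_true, Nat.ble_eq, Nat.blt_eq]; omega
  · rw [show evL (evS ev sg) (w.map (· + 11)) = evL (fun x => evS ev sg (x + 11)) w by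
      simp only [evL, List.map_map]; rfl]
    refine evL_congr fun x hx => ?_
    obtain ⟨a, b⟩ := inR_spec h x hx
    interval_cases x <;> exact evL_singleton _ _

theorem E_normal : E.Normal := ⟨by
  rintro _ ⟨v, rfl⟩ g
  obtain ⟨w, a, b⟩ := exists_w g⁻¹
  have := hlin _ (shift a).1 v
  rw [(shift a).2, b, inv_inv] at this
  exact ⟨_, this⟩⟩

theorem inj {v : ℕ} (h : evL (evS ev sg) (bw v 8) = 1) : v % 256 = 0 := by
  have := allB_spec (by decide +kernel : allB (fun v => Nat.beq v 0 ||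
    movB img 120 5 bs (subst sg (bw v 8))) 256 = true) (v % 256) (Nat.mod_lt _ (by norm_num))
  rw [Bool.or_eq_true, Nat.beq_eq] at this
  refine this.resolve_right fun e => hφ.mov e ?_
  rw [← evL_subst, show 256 = 2 ^ 8 from rfl, bw_mod v 8 le_rfl, h]

theorem tw_mem : evL ev tw ∈ E := ⟨1, by rw [evL_subst]; exact neq (by decide +kernel)⟩

theorem ww_mem : evL ev ww ∈ E := ⟨159, by rw [evL_subst]; exact neq (by decide +kernel)⟩

theorem tri : evL ev tw * ((evL ev [4])⁻¹ * evL ev tw * evL ev [4]) =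
    (evL ev [4,2,1,4,2,1,3])⁻¹ * evL ev tw * evL ev [4,2,1,4,2,1,3] := by
  rw [← evL_invW hev, ← evL_invW hev, ← evL_append, ← evL_append, ← evL_append, ← evL_append,
    ← evL_append]
  exact neq (by decide +kernel)

/-- The word commutes with a conjugate of the involution, or has no fixed point. -/
noncomputable def oddChk (w : List ℕ) (e : List ℕ × List ℕ) : Bool :=
  inR 5 w && (chk (w ++ (invW 17213620480 e.1 ++ tw ++ e.1) ++ invW 17213620480 (invW 17213620480 e.1 ++ tw ++ e.1 ++ w)) ||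
    ((List.range 8).all (fun k => Nat.beq (trF (lin A 8) (w.map (· + 11)) (2 ^ k)) (nthN e.2 k)) &&
      allB (fun v => Nat.beq v 0 || !Nat.beq ((xv (nthN e.2) v 8 ^^^ v) % 256) 0) 256))

theorem oddChk_spec {w : List ℕ} {e : List ℕ × List ℕ} (h : oddChk w e = true) {c : Grp} (hc : c ∈ E)
    (c1 : c ≠ 1) (c2 : Commute (evL ev w) c) : ∃ g, Commute (evL ev w) (g⁻¹ * evL ev tw * g) := by
  simp only [oddChk, Bool.and_eq_true, Bool.or_eq_true, List.all_eq_true, List.mem_range,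
    Nat.beq_eq] at h
  obtain ⟨h1, h | ⟨h2, h3⟩⟩ := h
  · refine ⟨evL ev e.1, ?_⟩
    have := neq h
    rwa [evL_append, evL_append, evL_append, evL_append, evL_append, evL_append, evL_invW hev] at this
  obtain ⟨v, rfl⟩ := hc
  rw [← bw_mod (r := 8) v 8 le_rfl] at c1 c2
  have h4 := allB_spec h3 (v % 2 ^ 8) (Nat.mod_lt _ (by norm_num))
  generalize v % 2 ^ 8 = v at c1 c2 h4
  have h5 := hea.conj (g := evL ev w) (A := nthN e.2) (fun k hk => by
    rw [← h2 k hk, ← hlin _ (shift h1).1, (shift h1).2, bw_pow, if_pos hk, evL_singleton]) v 8 le_rfl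
  rw [cj_of_commute c2] at h5
  simp only [Bool.or_eq_true, Nat.beq_eq, nbeq_iff] at h4
  rcases h4 with h4 | h4
  · exact absurd (by rw [h4, bw_zero, evL_nil]) c1
  · exact absurd (inj (by rw [hea.xor _ _ 8 le_rfl, ← h5, sq])) h4

theorem odd1 {p : ℕ} (hp : p.Prime) (hd : ¬ p ^ 3 ∣ 1843200) {a b : List ℕ}
    {L : List (List ℕ × List ℕ)} (h : (chk (rp p a) && chk (rp p b) &&
      chk (a ++ b ++ invW 17213620480 (b ++ a)) && movB img 120 5 bs a &&
      (List.range p).all fun i => movB img 120 5 bs (rp i a ++ invW 17213620480 b) &&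
        (List.range p).all fun j => oddChk (rp i a ++ rp j b) (L.getD (i * p + j) ([], []))) = true)
    {c u : Grp} (hc : c ∈ E) (c1 : c ≠ 1) (c2 : Commute u c) {k : ℕ} (hu : u ^ p ^ k = 1) :
    ∃ g, Commute u (g⁻¹ * evL ev tw * g) := by
  simp only [Bool.and_eq_true, List.all_eq_true, List.mem_range] at h
  obtain ⟨⟨⟨⟨h1, h2⟩, h3⟩, h4⟩, h5⟩ := h
  have := finite
  obtain ⟨g, i, hi, j, hj, e⟩ := syl_two hp (a := evL ev a) (b := evL ev b)
    (by rw [← evL_rp]; exact ora _ h1) (by rw [← evL_rp]; exact ora _ h2)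
    (by have := neq h3; rwa [evL_append, evL_append] at this) (by rwa [main.1]) (hφ.mov h4)
    (fun i hi e => hφ.mov (h5 i hi).1 (by rw [evL_append, evL_rp, evL_invW hev, e, mul_inv_cancel])) hu
  obtain ⟨g', e'⟩ := oddChk_spec ((h5 i hi).2 j hj) (E_normal.conj_mem' c hc g)
    (fun e => c1 (by rw [show c = g * (g⁻¹ * c * g) * g⁻¹ by group, e]; group))
    (by rw [evL_append, evL_rp, evL_rp, ← e]; exact commute_cj c2 g)
  rw [evL_append, evL_rp, evL_rp, ← e] at e'
  refine ⟨g' * g⁻¹, ?_⟩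
  have := commute_cj e' g⁻¹
  rwa [show g⁻¹⁻¹ * (g⁻¹ * u * g) * g⁻¹ = u by group,
    show g⁻¹⁻¹ * (g'⁻¹ * evL ev tw * g') * g⁻¹ = (g' * g⁻¹)⁻¹ * evL ev tw * (g' * g⁻¹) by group] at this

theorem hodd : ∀ c ∈ E, c ≠ 1 → ∀ u, Commute u c → ∀ p k : ℕ, p.Prime → p ≠ 2 → u ^ p ^ k = 1 →
    ∃ g, Commute u (g⁻¹ * evL ev tw * g) := by
  intro c hc c1 u c2 p k hp p2 hu
  by_cases p3 : p = 3
  · subst p3
    exact odd1 hp (by norm_num) (a := [1,2,1,3]) (b := [4,1,4,2,1,4,2,4]) (L := [([], []), ([], [22,105,128,92,254,87,118,132]), ([], [23,107,132,84,238,119,54,4]), ([], []), ([4,2,1,3,1,4], []), ([], [23,126,128,184,255,115,182,132]), ([], []), ([], [22,124,132,176,239,83,246,4]), ([4,2,1,3,1,4], [])]) (by decide +kernel) hc c1 c2 hu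
  by_cases p5 : p = 5
  · subst p5
    exact odd1 hp (by norm_num) (a := [1,2,4,3,1,4]) (b := [2,1,3,4,2,1,3,4]) (L := [([], []), ([], [113,24,68,255,254,182,83,64]), ([], [106,1,23,137,248,84,196,83]), ([], [2,113,211,206,164,233,87,196]), ([], [24,106,132,176,178,43,128,87]), ([4,2,1,2], []), ([], [71,247,157,4,114,162,233,84]), ([], [126,118,116,68,3,238,43,233]), ([], [184,71,95,23,105,6,32,43]), ([4,2,1,2,2], []), ([4,2,1,2], []), ([], [83,128,254,201,137,24,6,238]), ([], [196,64,248,157,206,1,92,6]), ([4,2,1,2,2], []), ([], [128,196,178,95,8,106,162,22]), ([4,2,1,2], []), ([], [233,182,114,16,68,247,113,1]), ([4,2,1,2,2], []), ([], [32,233,105,248,211,71,2,106]), ([], [182,43,107,164,132,126,24,2]), ([4,2,1,2], []), ([4,2,1,2,2], []), ([], [92,238,206,114,116,64,126,71]), ([], [22,6,176,3,95,83,184,126]), ([], [162,92,8,105,127,196,247,184])]) (by decide +kernel) hc c1 c2 hu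
  have := finite
  have h1 : (p ^ k).Coprime (Nat.card Grp) := by
    rw [main.1, show 1843200 = 2 ^ 13 * 3 ^ 2 * 5 ^ 2 by norm_num]
    exact Nat.Coprime.pow_left _ (Nat.Coprime.mul_right (Nat.Coprime.mul_right
      (((Nat.coprime_primes hp Nat.prime_two).mpr p2).pow_right _)
      (((Nat.coprime_primes hp Nat.prime_three).mpr p3).pow_right _))
      (((Nat.coprime_primes hp Nat.prime_five).mpr p5).pow_right _))
  rw [orderOf_eq_one_iff.mp (Nat.eq_one_of_dvd_coprimes h1 (orderOf_dvd_of_pow_eq_one hu)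
    (orderOf_dvd_natCard u))]
  exact ⟨1, Commute.one_left _⟩

end Cfsg.H6.HNR.NI
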