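import Cfsg.Agent.H6.HNR.T1
import Cfsg.Agent.H6.HNR.M.Main
import Cfsg.Agent.H6.HNR.S8

/-! The centraliser of an involution of the second class in the presented group. -/

set_option autoImplicit false
set_option maxRecDepth 100000

namespace Cfsg.H6.HNR

open G R M

theorem θ_mv {w : List ℕ} (h : inR 8 (subst HN.sg w) = true) :
    HN.θ (pw w) = evL M.mv (subst HN.sg w) := by
  rw [mv_base h, pw, map_evL, funext HN.hθ, evL_subst]

theorem mv_P {m : ℕ} {w : List ℕ} (h : HN.M.P.weq code (m + 1) (subst HN.sg w) [m] = true)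
    (c : (inR 8 (subst HN.sg w) && Nat.blt m 26) = true) : M.mv m = HN.θ (pw w) := by
  rw [Bool.and_eq_true, Nat.blt_eq] at c
  rw [θ_mv c.1, mv_def h c.2]

/-- The involution of the first class. -/
noncomputable def tH : Spor.HN := HN.θ τ

/-- The involution of the second class. -/
noncomputable def zH : Spor.HN := HN.θ (j0 * τ)

theorem mv10 : M.mv 10 = zH := (mv_P (w := jw ++ ([1, 1] : List ℕ)) d10 (by decide +kernel)).trans
  (congrArg HN.θ (pw_append _ _))

theorem mv14 : M.mv 14 = tH := mv_P (w := [1, 1]) d14 (by decide +kernel)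

theorem zH_sq : zH * zH = 1 := by rw [zH, ← map_mul, sq_mul j0_sq τ_sq (τ_cen _), map_one]

theorem tH_sq : tH * tH = 1 := by rw [tH, ← map_mul, τ_sq, map_one]

theorem zH_ne : zH ≠ 1 := fun e => pne_spec (u := jw ++ [1, 1]) (w := []) (by decide +kernel)
  (HN.θ_inj (by rw [pw_append]; exact e.trans (map_one _).symm))

/-- The value of a word of the model. -/
noncomputable def nw (w : List ℕ) : Spor.HN := evL (evS M.mv sN) w

theorem nw_append (u w : List ℕ) : nw (u ++ w) = nw u * nw w := evL_append _ _ _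

/-- The first two generators as words. -/
def sab : List (List ℕ) := [[], [5], [4,7,4,6,6,6,3,3], [4,4,7,7,7,3,6,3]]

theorem nw_P {v : List ℕ} (h : inR 4 v = true) : nw v = HN.θ (pw (subst sab v)) := by
  rw [pw, ← evL_subst, map_evL]
  refine evL_congr fun x hx => ?_
  obtain ⟨a, b⟩ := inR_spec h x hx
  interval_cases x
  · exact (θ_mv (w := [5]) (by decide)).symm
  · exact (evL_singleton _ _).trans (mv_P d8 (by decide +kernel))
  · exact (evL_singleton _ _).trans (mv_P d9 (by decide +kernel))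

theorem nw_eq {v w : List ℕ} (h : (inR 4 v && peq (subst sab v) w) = true) : nw v = HN.θ (pw w) := by
  rw [Bool.and_eq_true] at h
  rw [nw_P h.1, peq_spec h.2]

theorem nw_one {v : List ℕ} (h : (inR 4 v && peq (subst sab v) []) = true) : nw v = 1 :=
  (nw_eq h).trans (map_one _)

theorem nw_z {v : List ℕ} (h : (inR 4 v && peq (subst sab v) (jw ++ [1, 1])) = true) : nw v = zH :=
  (nw_eq h).trans (congrArg HN.θ (pw_append _ _))

theorem nw_sN (w : List ℕ) : nw w = evL M.mv (subst sN w) := evL_subst _ _ _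

theorem nv_big (l : ℕ) (h : 5 ≤ l) : evS M.mv sN l = 1 := by
  rw [evS, List.getD_eq_default _ _ h, evL_nil]

theorem ngood : Good (evS M.mv sN) 17213620480 := good_of_rels (m := 5) rfl nv_big (by norm_num) (by
  intro r hr
  have : r ∈ [[0, 0], [1, 1], [3, 2], [2, 3], [4, 4]] := hr
  simp only [List.mem_cons, List.not_mem_nil, or_false] at this
  rcases this with rfl | rfl | rfl | rfl | rfl
  exacts [one_mul 1, nw_one (by decide +kernel), nw_one (by decide +kernel),
    nw_one (by decide +kernel), (nw_sN _).trans (mq_spec cc)])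

theorem nw_inv (w : List ℕ) : nw (invW 17213620480 w) = (nw w)⁻¹ := evL_invW ngood w

theorem nw_comm (w : List ℕ) : Commute (nw w) zH := by
  refine Subgroup.mem_centralizer_singleton_iff.mp (evL_mem_of_letters fun x _ => ?_)
  rw [Subgroup.mem_centralizer_singleton_iff, ← evL_singleton (evS M.mv sN) x]
  have k : ∀ x, (inR 4 [x] && peq (subst sab [x] ++ jw) (jw ++ subst sab [x])) = true →
      Commute (nw [x]) zH := fun x h => by
    rw [Bool.and_eq_true] at h
    rw [nw_P h.1]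
    exact ((pcm_spec h.2).mul_right (τ_cen _)).map HN.θ
  by_cases h : x < 5
  · interval_cases x
    · exact Commute.one_left _
    iterate 3 exact k _ (by decide +kernel)
    simpa [evL, evS, sN, mv10] using mq_spec cz
  · rw [evL_singleton, nv_big x (by omega), one_mul, mul_one]

theorem nrel : ∀ r ∈ N.R, nw r = 1 ∨ nw r = zH := fun r hr => by
  have := List.all_eq_true.mp (by decide +kernel : N.R.all (fun r => r == [4, 4] || ([[1,2,1,4,1,3,1,2,1,4,1,3], [1,2,4,1,4,3,1,2,4,1,4,3], [1,2,4,2,4,2,4,1,2,4,2,4,2,4], [1,4,2,2,2,2,4,1,4,2,2,2,2,4], [1,2,2,1,3,4,1,4,1,2,2,1,3,4,1,4], [1,2,2,4,1,2,2,4,1,2,2,4,1,2,2,4], [1,3,3,3,4,2,2,4,1,3,3,3,4,2,2,4], [1,2,1,3,4,3,4,3,3,1,2,1,3,4,3,4,3,3], [1,2,4,2,4,3,3,3,4,1,2,4,2,4,3,3,3,4], [1,3,4,1,3,4,1,3,4,1,3,4,1,3,4,1,3,4], [1,3,4,3,4,3,4,1,4,1,3,4,3,4,3,4,1,4], [1,2,1,3,3,4,2,1,2,1,3,3,4,2,1,2,1,3,3,4,2], [1,2,2,1,3,4,1,2,2,1,3,4,1,2,2,1,3,4,1,2,2,1,3,4], [1,2,2,2,4,1,3,4,1,2,2,2,4,1,3,4,1,2,2,2,4,1,3,4],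 [1,2,1,2,2,1,2,2,4,1,2,1,2,2,1,2,2,4,1,2,1,2,2,1,2,2,4]] : List (List ℕ)).elem r ||
    inR 4 r && peq (subst sab r) [] || inR 4 r && peq (subst sab r) (jw ++ [1, 1])) = true) r hr
  simp only [Bool.or_eq_true, beq_iff_eq] at this
  rcases this with ((rfl | h) | h) | h
  · exact Or.inl ((nw_sN _).trans (mq_spec cc))
  · rw [nw_sN, ← mv10, ← evL_singleton M.mv 10]
    exact rel2 r (List.mem_of_elem_eq_true h)
  exacts [Or.inl (nw_one h), Or.inr (nw_z h)]

theorem faith {w : List ℕ} (hw : inR 5 w = true) (h : nw w = 1 ∨ nw w = zH) : evL N.ev w = 1 := by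
  have k : ∀ {w}, inR 5 w = true → nw w = 1 → evL N.ev w = 1 := fun hw e =>
    lab.faith N.ora (by decide +kernel) hw e
  rcases h with h | h
  · exact k hw h
  · have := k (w := w ++ [1,2,1,2,1,2,1,2,1,2,1,2,1,2,1,2,1,2,1,2]) (by
      unfold inR at hw ⊢
      rw [List.all_append, hw]; decide +kernel)
      (by rw [nw_append, h, nw_z (by decide +kernel), zH_sq])
    rwa [evL_append, N.ora [1,2,1,2,1,2,1,2,1,2,1,2,1,2,1,2,1,2,1,2] (by decide +kernel), mul_one] at this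

theorem K0_word {p : P} (h : Commute p j0) : ∃ v, HN.θ p = nw v := by
  let S : Subgroup P :=
    { carrier := {p | ∃ v, HN.θ p = nw v}
      one_mem' := ⟨[], map_one _⟩
      mul_mem' := fun ⟨u, hu⟩ ⟨v, hv⟩ => ⟨u ++ v, by rw [map_mul, hu, hv, nw_append]⟩
      inv_mem' := fun ⟨u, hu⟩ => ⟨_, by rw [map_inv, hu, nw_inv]⟩ }
  refine mem_K0 (S := S) ⟨NI.tw, (nw_eq (w := [1, 1]) (by decide +kernel)).symm⟩ (fun w hw => ?_)
    (by simpa only [π0_pw, j0] using h.map π0)
  obtain ⟨v, _, e⟩ := List.any_eq_true.mp (List.all_eq_true.mp (by decide +kernel : Ws.all (fun w =>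
    ([[1], [2,2,1,3,3], [1,3,1,2,2,1,3,1,3,1,2,2,1,3,1,3,1,3], [1,2,2,1,2,1,2,1,2,2,1,2,1,2,1,2,2,1,2], [1,2,1,2,1,2,1,2,1,2,1,3,1,3,3,1,2,1,2,1,2,1,2], [3,1,2], [1,3,1,3,1,2,2,1,2,1,3,1,3,1,2,1,3,3,1,3,1], [2,2,2,2]] : List (List ℕ)).any fun v => inR 4 v && peq (subst sab v) w) = true) w hw)
  exact ⟨v, (nw_eq e).symm⟩

theorem nw_tw : nw NI.tw = tH := nw_eq (w := [1, 1]) (by decide +kernel)

theorem conj_of_mul {H : Type*} [Group H] {a b k : H} (h : a * k = k * b) : IsConj a b := by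
  rw [show b = k⁻¹ * a * k by rw [mul_assoc, h, inv_mul_cancel_left]]
  exact isConj_cj _ _

theorem isConj_iff_eq' {H : Type*} [Group H] {a b : H} (h : a = b) : IsConj a b := h ▸ IsConj.refl a

theorem swap0 : (nw [3,4,3,1,4,3,4])⁻¹ * tH * nw [3,4,3,1,4,3,4] = tH * zH := by
  have := mq_spec (u := ([14] : List ℕ) ++ subst sN [3,4,3,1,4,3,4]) (v := subst sN [3,4,3,1,4,3,4] ++ ([14, 10] : List ℕ)) c1
  rw [evL_append, evL_append, ← nw_sN, evL_cons M.mv 14 [10], evL_singleton, evL_singleton, mv14,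
    mv10] at this
  rw [mul_assoc, this, inv_mul_cancel_left]

theorem θ_z {u w k : List ℕ} (h : pcj k (jw ++ [1, 1]) (u ++ w) = true) :
    IsConj zH (HN.θ (pw u) * HN.θ (pw w)) := by
  have := HN.θ.map_isConj (pcj_conj h)
  rwa [pw_append, pw_append u, map_mul HN.θ (pw u)] at this

theorem t_zz : IsConj tH (HN.θ zz) := by
  have := mq_spec (u := ([14] : List ℕ) ++ subst sN [4]) (v := subst sN [4] ++ subst HN.sg [4,5,6,4,7,5,3,5,3,1]) c2
  rw [evL_append, evL_append, evL_singleton, mv14, ← θ_mv (by decide +kernel)] at this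
  exact (conj_of_mul this).trans (HN.θ.map_isConj (pcj_conj (k := [3,5,3,6,6,4]) (by decide +kernel))).symm

theorem z_ee : IsConj zH (HN.θ ee) := by
  have := mq_spec (u := subst HN.sg [7,3,3,5,6,6,6,5,3,6] ++ subst sN [2,4]) (v := subst sN [2,4] ++ subst HN.sg [4,7,4,7,5,7,3,3,3,6,4,7,4,7]) c3
  rw [evL_append, evL_append, ← θ_mv (by decide +kernel), ← θ_mv (by decide +kernel)] at this
  have a := θ_z (u := [7,3,3,5,6,6,6,5,3,6]) (w := []) (k := [1,7,5,3,6,6,5,7,7]) (by decide +kernel)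
  rw [show pw [] = 1 from rfl, map_one, mul_one] at a
  exact (a.trans (conj_of_mul this)).trans
    (HN.θ.map_isConj (pcj_conj (k := [4,7,4,7]) (by decide +kernel))).symm

theorem reps : ∀ w ∈ NI.Reps, w = [] ∨ w = NI.tw ∨ nw w * nw w = zH ∨
    (IsConj zH (nw w * zH) ∧ (IsConj tH (nw w) ∨ IsConj zH (nw w))) := by
  have z1 : zH = HN.θ (pw (jw ++ [1, 1])) := congrArg HN.θ (pw_append _ _).symm
  have o : ∀ w, mq (subst sN (w ++ w)) [10] = true → nw w * nw w = zH := fun w h => by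
    rw [← nw_append, nw_sN, mq_spec h, evL_singleton, mv10]
  intro w hw
  simp only [NI.Reps, List.mem_cons, List.not_mem_nil, or_false] at hw
  rcases hw with rfl | rfl | rfl | rfl | rfl | rfl | rfl
  · exact Or.inl rfl
  · exact Or.inr (Or.inl rfl)
  · refine Or.inr (Or.inr (Or.inr ?_))
    rw [nw_eq (w := [5]) (by decide +kernel)]
    refine ⟨z_ee.trans ?_, Or.inl t_zz⟩
    rw [z1, ← map_mul, ← pw_append]
    exact HN.θ.map_isConj (pcj_conj (k := [1,7,4,4,7,4,7,7,7,3,6,3,7,4,4,6,6,4,7]) (by decide +kernel))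
  · have a : nw [4] = M.mv 13 := (nw_sN _).trans (evL_singleton _ _)
    have b : IsConj zH (M.mv 13 * zH) :=
      conj_of_mul (k := M.mv 12) (by simpa [evL, mv10, mul_assoc] using mq_spec c4)
    have c := mq_spec (u := ([13] : List ℕ) ++ subst sN [2,4,1,3,3,3,4,2]) (v := subst sN [2,4,1,3,3,3,4,2] ++ ([13, 10] : List ℕ)) c5
    rw [evL_append, evL_append, evL_cons M.mv 13 [10], evL_singleton, evL_singleton, mv10] at c
    exact Or.inr (Or.inr (Or.inr ⟨a ▸ b, Or.inr (a ▸ b.trans (conj_of_mul c).symm)⟩))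
  · refine Or.inr (Or.inr (Or.inr ?_))
    rw [nw_eq (w := [7,3,3,5,6,6,6,5,3,6]) (by decide +kernel)]
    have a := θ_z (u := [7,3,3,5,6,6,6,5,3,6]) (w := []) (k := [1,7,5,3,6,6,5,7,7]) (by decide +kernel)
    rw [show pw [] = 1 from rfl, map_one, mul_one] at a
    have b := θ_z (u := [7,3,3,5,6,6,6,5,3,6]) (w := jw ++ ([1, 1] : List ℕ)) (k := [1,4,5,3,6]) (by decide +kernel)
    exact ⟨by rwa [← z1] at b, Or.inr a⟩
  · exact Or.inr (Or.inr (Or.inl (o _ o5)))
  · exact Or.inr (Or.inr (Or.inl (o _ o6)))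

theorem ww_sq : nw NI.ww * nw NI.ww = zH := by
  rw [← nw_append]; exact nw_z (by decide +kernel)

theorem wt_sq : nw (NI.ww ++ NI.tw) * nw (NI.ww ++ NI.tw) = zH := by
  rw [← nw_append]; exact nw_z (by decide +kernel)

section
variable {G Y : Type*} [Group G] [Group Y] (Φ : Spor.HN →* G)

/-- The value of a word in the centraliser. -/
noncomputable def cw (w : List ℕ) : Subgroup.centralizer ({Φ zH} : Set G) :=
  ⟨Φ (nw w), Subgroup.mem_centralizer_singleton_iff.mpr ((nw_comm w).map Φ)⟩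

/-- The involution in its centraliser. -/
noncomputable def cz : Subgroup.centralizer ({Φ zH} : Set G) :=
  ⟨Φ zH, Subgroup.mem_centralizer_singleton_iff.mpr rfl⟩

theorem exists_dc : ∃ (K : Subgroup (Subgroup.centralizer ({Φ zH} : Set G))) (_ : K.Normal),
    DC (QuotientGroup.mk' K) (cz Φ) :=
  dc_quot (Subtype.ext (by
    show Φ zH * Φ zH = 1
    rw [← map_mul, zH_sq, map_one])) fun x =>
    Subtype.ext (Subgroup.mem_centralizer_singleton_iff.mp x.2)

variable {Φ} {π : Subgroup.centralizer ({Φ zH} : Set G) →* Y}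

theorem exists_rho (hΦ : Function.Injective Φ) (C : DC π (cz Φ)) :
    ∃ ρ : N.Grp →* Y, Function.Injective ρ ∧ ∀ w, ρ (evL N.ev w) = π (cw Φ w) := by
  have hw : ∀ w, evL (fun l => π (cw Φ [l])) w = π (cw Φ w) := fun w => by
    rw [← map_evL]
    refine congrArg π (Subtype.ext ?_)
    rw [← Subgroup.subtype_apply, map_evL]
    show _ = Φ (nw w)
    rw [nw, map_evL]
    exact evL_congr fun x _ => congrArg Φ (evL_singleton _ _)
  have k : ∀ w, π (cw Φ w) = 1 ↔ nw w = 1 ∨ nw w = zH := fun w =>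
    ⟨fun e => (C.ker _ e).imp (fun e => hΦ ((congrArg Subtype.val e).trans (map_one Φ).symm))
      fun e => hΦ (congrArg Subtype.val e), fun e => e.elim
      (fun e => by rw [show cw Φ w = 1 from Subtype.ext ((congrArg Φ e).trans (map_one Φ)), map_one])
      fun e => by rw [show cw Φ w = cz Φ from Subtype.ext (congrArg Φ e), C.map]⟩
  obtain ⟨ρ, hρ⟩ := N.lift (ev' := fun l => π (cw Φ [l])) ⟨(k _).mpr (Or.inl (one_mul 1)), fun l => by
    rw [← map_inv]
    refine congrArg π (Subtype.ext ?_)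
    show Φ (nw _) = (Φ (nw _))⁻¹
    rw [← map_inv, ← nw_inv]; rfl⟩ fun r hr => (hw r).trans ((k r).mpr (nrel r hr))
  have h1 : ∀ w, ρ (evL N.ev w) = π (cw Φ w) := fun w => by rw [map_evL, funext hρ, hw]
  refine ⟨ρ, (injective_iff_map_eq_one ρ).mpr fun γ e => ?_, h1⟩
  obtain ⟨w, a, rfl⟩ := NI.exists_w γ
  exact faith a ((k w).mp (h1 w ▸ e))

theorem rho_cls {ρ : N.Grp →* Y} (C : DC π (cz Φ)) (hi : Function.Injective ρ)
    (hρ : ∀ w, ρ (evL N.ev w) = π (cw Φ w)) {x : Subgroup.centralizer ({Φ zH} : Set G)}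
    (hx : π x ∈ ρ.range) (h2 : x * x = 1) : ∃ w ∈ NI.Reps, ∃ k,
      (Φ (nw k))⁻¹ * x.1 * Φ (nw k) = Φ (nw w) ∨ (Φ (nw k))⁻¹ * x.1 * Φ (nw k) = Φ (nw w * zH) := by
  obtain ⟨γ, hγ⟩ := hx
  obtain ⟨w, hw, e⟩ := NI.classes (x := γ) (hi (by rw [map_mul, hγ, ← map_mul, h2, map_one, map_one]))
  obtain ⟨δ, hδ⟩ := IsConj.exists_cj e
  obtain ⟨k, _, rfl⟩ := NI.exists_w δ
  refine ⟨w, hw, k, (C.eq (x := (cw Φ k)⁻¹ * x * cw Φ k) (y := cw Φ w) (by
    rw [← hρ, ← hδ]; simp [hγ, hρ])).imp (congrArg Subtype.val) fun e => ?_⟩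
  rw [map_mul]; exact congrArg Subtype.val e

end

theorem two {x : Spor.HN} (hx : x * x = 1) : x = 1 ∨ IsConj tH x ∨ IsConj zH x := by
  have := HN.finite
  have := N.finite
  obtain ⟨K, hK, C⟩ := exists_dc (MonoidHom.id Spor.HN)
  obtain ⟨ρ, hi, hρ⟩ := exists_rho Function.injective_id C
  have h1 := C.card fun e => zH_ne (congrArg Subtype.val e)
  have h2 := ρ.range.card_mul_index
  rw [← Nat.card_congr (MonoidHom.ofInjective hi).toEquiv, N.main.1] at h2
  have h3 := (Subgroup.centralizer ({MonoidHom.id Spor.HN zH} : Set Spor.HN)).card_mul_index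
  obtain ⟨g, ⟨y, y1, y2⟩⟩ := exists_conj_mem_of_odd (x := x) (k := 1)
    (T := (ρ.range.comap (QuotientGroup.mk' K)).map (Subgroup.subtype _)) (by
      rw [Subgroup.index_map_subtype, Subgroup.index_comap_of_surjective _ C.surj]
      rw [h1, ← h2, HN.main.1, mul_assoc, mul_assoc] at h3
      generalize ρ.range.index * _ = n at h3
      exact ⟨37032187, by omega⟩) (by rw [pow_one, pow_two, hx])
  have y3 : IsConj x y.1 := by rw [show y.1 = _ from y2]; exact isConj_cj _ _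
  have y4 := sq_of_isConj hx y3
  obtain ⟨w, hw, k, e⟩ := rho_cls C hi hρ y1 (Subtype.ext y4)
  have e' : IsConj x (nw w) ∨ IsConj x (nw w * zH) :=
    e.imp (fun e => y3.trans ((isConj_cj _ _).trans (isConj_iff_eq' e)))
      fun e => y3.trans ((isConj_cj _ _).trans (isConj_iff_eq' e))
  rcases reps w hw with rfl | rfl | h | h
  · rw [show nw [] = 1 from rfl, one_mul, isConj_one_left] at e'
    exact e'.imp id fun e => Or.inr e.symm
  · rw [nw_tw, ← swap0] at e'
    exact Or.inr (Or.inl (e'.elim IsConj.symm fun e => (isConj_cj _ _).trans e.symm))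
  · refine absurd (h.symm.trans (e'.elim (sq_of_isConj hx) fun e => ?_)) zH_ne
    have := sq_of_isConj hx e
    rwa [mul_assoc, ← mul_assoc zH, ← (nw_comm w).eq, mul_assoc, zH_sq, mul_one] at this
  · exact Or.inr (e'.elim (fun e => h.2.imp (·.trans e.symm) (·.trans e.symm))
      fun e => Or.inr (h.1.trans e.symm))

end Cfsg.H6.HNR
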