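import Cfsg.Agent.H6.HNR.T2
import Cfsg.Agent.H6.HNR.S7
import Cfsg.Agent.H6.HNR.Carm

/-! The embedding is onto. -/

set_option autoImplicit false
set_option maxRecDepth 100000

namespace Cfsg.H6.HNR

open G R M

variable {G : Type*} [Group G] {d : G} {F : P →* G} {Φ : Spor.HN →* G}

theorem Ch.nconj (hF : Ch d zz ee F) (hθ : ∀ p, Φ (HN.θ p) = F p) : ¬ IsConj (Φ tH) (Φ zH) := by
  rw [tH, zH, hθ, hθ]
  exact fun e => hF.nz (hF.dτ.trans e)

theorem Ch.cenz [Finite G] (hF : Ch d zz ee F) (hΦ : Function.Injective Φ)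
    (hθ : ∀ p, Φ (HN.θ p) = F p) {g : G} (hg : Commute g (Φ zH)) : g ∈ Φ.range := by
  obtain ⟨K, hK, C⟩ := exists_dc Φ
  obtain ⟨ρ, hi, hρ⟩ := exists_rho hΦ C
  have nz := hF.nconj hθ
  have z1 : Φ zH ≠ 1 := fun e => zH_ne (hΦ (e.trans (map_one Φ).symm))
  have t2 : Φ tH * Φ tH = 1 := by rw [← map_mul, tH_sq, map_one]
  have c2 : cw Φ NI.tw * cw Φ NI.tw = 1 := Subtype.ext (by
    show Φ (nw _) * Φ (nw _) = 1
    rw [nw_tw, t2])
  have nc : ∀ w, nw w * nw w = zH → ¬ IsConj (ρ (evL N.ev NI.tw)) (ρ (evL N.ev w)) := fun w h e => by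
    rw [hρ, hρ] at e
    have := congrArg Subtype.val ((C.sq_cj (by rw [← map_mul, c2, map_one]) e).trans c2)
    exact z1 (by rw [← h, map_mul]; exact this)
  have := NI.E_normal
  have top := top_model ρ hi NI.E NI.tw_mem NI.E_sq NI.hodd (fun y hy => by
    obtain ⟨g, rfl⟩ := C.surj y
    rw [hρ, ← map_inv, ← map_mul, ← map_mul] at hy
    obtain ⟨w, hw, k, e⟩ := rho_cls C hi hρ hy (sq_of_isConj c2 (isConj_cj _ g))
    have fin : ∀ v, Commute (g * cw Φ v).1 (Φ tH) → QuotientGroup.mk' K g ∈ ρ.range := fun v a => by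
      have b := Subgroup.mem_centralizer_singleton_iff.mp (g * cw Φ v).2
      rw [tH, hθ] at a
      obtain ⟨p, hp⟩ := hF.surj _ a
      rw [← hp, zH, hθ, ← commute_iff_eq, hF.comm] at b
      obtain ⟨u, hu⟩ := K0_word (p := p) (by
        have := b.mul_right (τ_cen p)
        rwa [mul_assoc, τ_sq, mul_one] at this)
      have e1 : g * cw Φ v = cw Φ u := Subtype.ext (by rw [← hp, ← hθ, hu]; rfl)
      exact ⟨evL N.ev u * (evL N.ev v)⁻¹, by
        rw [map_mul, map_inv, hρ, hρ, ← e1, map_mul, mul_inv_cancel_right]⟩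
    have e0 : (Φ (nw k))⁻¹ * (g⁻¹ * cw Φ NI.tw * g).1 * Φ (nw k) =
        (g * cw Φ k).1⁻¹ * Φ tH * (g * cw Φ k).1 := by
      show _ * (g.1⁻¹ * Φ (nw _) * g.1) * _ = (g.1 * Φ (nw k))⁻¹ * _ * (g.1 * Φ (nw k))
      rw [nw_tw]; group
    rw [e0] at e
    have b := Subgroup.mem_centralizer_singleton_iff.mp (g * cw Φ k).2
    have s0 := congrArg Φ swap0
    rw [map_mul, map_mul, map_inv, map_mul] at s0
    have e1 : IsConj (Φ tH) ((g * cw Φ k).1⁻¹ * Φ tH * (g * cw Φ k).1 * Φ zH) := by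
      rw [mul_assoc _ _ (Φ zH), b, ← mul_assoc, mul_assoc _ (Φ tH), ← s0]
      exact (isConj_cj _ _).trans (isConj_cj _ _)
    have e2 : IsConj (Φ tH) (Φ (nw w)) ∧ IsConj (Φ tH) (Φ (nw w * zH)) := by
      rcases e with e | e
      · exact ⟨e ▸ isConj_cj _ _, by rw [map_mul, ← e]; exact e1⟩
      · refine ⟨?_, e ▸ isConj_cj _ _⟩
        rwa [e, ← map_mul, mul_assoc, zH_sq, mul_one] at e1
    rcases reps w hw with rfl | rfl | h | h
    · have := e2.2
      rw [show nw [] = 1 from rfl, one_mul] at this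
      exact absurd this nz
    · rw [nw_tw] at e
      rcases e with e | e
      · exact fin k (commute_of_cj e)
      · refine fin (k ++ invW 17213620480 [3, 4, 3, 1, 4, 3, 4]) (commute_of_cj ?_)
        have e3 : (g * cw Φ (k ++ invW 17213620480 [3, 4, 3, 1, 4, 3, 4])).1 =
            (g * cw Φ k).1 * (Φ (nw [3, 4, 3, 1, 4, 3, 4]))⁻¹ := by
          show g.1 * Φ (nw _) = g.1 * Φ (nw _) * _
          rw [nw_append, nw_inv, map_mul, map_inv, mul_assoc]
        rw [e3, mul_inv_rev, inv_inv, mul_assoc, mul_assoc, ← mul_assoc (Φ tH), ← mul_assoc _ (_ * _),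
          ← mul_assoc (g * cw Φ k).1⁻¹, e, map_mul, ← s0]
        group
    · exact absurd (by rw [← h, map_mul]; exact sq_of_isConj t2 e2.1) z1
    · exact absurd (e2.2.trans (Φ.map_isConj h.1).symm) nz)
    NI.tri NI.ww_mem (nc _ ww_sq) (by rw [← evL_append]; exact nc _ wt_sq)
  obtain ⟨γ, hγ⟩ : QuotientGroup.mk' K ⟨g, Subgroup.mem_centralizer_singleton_iff.mpr hg⟩ ∈ ρ.range :=
    top ▸ Subgroup.mem_top _
  obtain ⟨w, _, rfl⟩ := NI.exists_w γ
  rcases C.eq (hγ.symm.trans (hρ w)) with e | e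
  · exact ⟨_, (congrArg Subtype.val e).symm⟩
  · exact ⟨nw w * zH, by rw [map_mul]; exact (congrArg Subtype.val e).symm⟩

theorem Ch.onto [Finite G] (hF : Ch d zz ee F) (hΦ : Function.Injective Φ)
    (hθ : ∀ p, Φ (HN.θ p) = F p) : Function.Surjective Φ := fun g => by
  have ct : ∀ g, Commute g (Φ tH) → g ∈ Φ.range := fun g hg => by
    rw [tH, hθ] at hg
    obtain ⟨p, hp⟩ := hF.surj _ hg
    exact ⟨_, (hθ p).trans hp⟩
  have tr : ∀ a x g, (∀ g, Commute g (Φ a) → g ∈ Φ.range) → IsConj a x → ∀ y, y⁻¹ * Φ a * y = g⁻¹ * Φ x * g →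
      g ∈ Φ.range → y ∈ Φ.range := fun a x g h e y e1 hg => by
    obtain ⟨k, rfl⟩ := IsConj.exists_cj e
    have := h (y * (Φ k * g)⁻¹) (commute_of_cj (by
      rw [show (y * (Φ k * g)⁻¹)⁻¹ * Φ a * (y * (Φ k * g)⁻¹) =
        Φ k * g * (y⁻¹ * Φ a * y) * (Φ k * g)⁻¹ by group, e1, map_mul, map_mul, map_inv]
      group))
    exact (Φ.range.mul_mem_cancel_right (Φ.range.inv_mem (Φ.range.mul_mem ⟨k, rfl⟩ hg))).mp this
  have s2 : ∀ {x}, Φ x * Φ x = 1 → x * x = 1 := fun e => hΦ (by rw [map_mul, e, map_one])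
  have z2 : Φ zH * Φ zH = 1 := by rw [← map_mul, zH_sq, map_one]
  have v2 := sq_of_isConj z2 (isConj_cj _ g)
  have nc : ¬ IsConj (Φ tH) (g⁻¹ * Φ zH * g) := fun e => hF.nconj hθ (e.trans (isConj_cj _ g).symm)
  obtain ⟨c, c1, c2, c3, c4⟩ := exists_cen_of_not_conj (by rw [← map_mul, tH_sq, map_one]) v2 nc
  obtain ⟨x, rfl⟩ := ct c c3.symm
  have cc : ∀ a, (∀ g, Commute g (Φ a) → g ∈ Φ.range) → IsConj a x → g⁻¹ * Φ zH * g ∈ Φ.range :=
    fun a h e => by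
      obtain ⟨k, rfl⟩ := IsConj.exists_cj e
      refine (Φ.range.mul_mem_cancel_left ⟨k, rfl⟩).mp (tr a a (Φ k) h (IsConj.refl a) _ ?_ ⟨k, rfl⟩)
      rw [map_mul, map_mul, map_inv] at c4
      rw [← cj_of_commute c4]; group
  obtain ⟨y, hy⟩ : g⁻¹ * Φ zH * g ∈ Φ.range := by
    rcases two (s2 c2) with e | e | e
    exacts [absurd (by rw [e, map_one]) c1, cc _ ct e, cc _ (fun _ => hF.cenz hΦ hθ) e]
  rcases two (x := y) (s2 (hy ▸ v2)) with e | e | e
  · rw [e, map_one, eq_comm, mul_assoc, inv_mul_eq_one, right_eq_mul] at hy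
    exact absurd (hΦ (hy.trans (map_one Φ).symm)) zH_ne
  · exact absurd (hy ▸ Φ.map_isConj e) nc
  · exact tr zH y 1 (fun _ => hF.cenz hΦ hθ) e g (by rw [hy]; group) Φ.range.one_mem

theorem exists_iso [Finite G] [IsSimpleGroup G] (t : G) (ht : orderOf t = 2)
    (M : Subgroup (Subgroup.centralizer ({t} : Set G))) [M.Normal] (hM : M.index = 2)
    (hout : Subgroup.centralizer (M : Set (Subgroup.centralizer ({t} : Set G))) ≤ M)
    (hcov : IsNonsplitDoubleCover M Spor.HS) :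
    ∃ Φ : Spor.HN ≃* G, ¬ IsConj (Φ tH) (Φ zH) := by
  obtain ⟨F, _, h⟩ := exists_Ch t ht M hM hout hcov
  have hF := h.resolve_right Ch.fake
  obtain ⟨Φ, h1, h2⟩ := hF.emb
  exact ⟨MulEquiv.ofBijective Φ ⟨h1, hF.onto h1 h2⟩, hF.nconj h2⟩

theorem exists_alt (Φ : Spor.HN ≃* G) :
    ∃ H : Subgroup G, Nonempty (H ≃* alternatingGroup (Fin 12)) :=
  Carm.exists_alt (fun i => Φ (M.mv (16 + (i - 1)))) (fun i hi => ⟨by
    show Φ (M.mv (16 + i)) ^ 3 = 1
    rw [← map_pow, (carm i hi).1, map_one], fun j hj => by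
    show (Φ (M.mv (16 + i)) * Φ (M.mv (16 + j))) ^ 2 = 1
    rw [← map_mul, ← map_pow, (carm i hi).2 j hj, map_one]⟩) fun e => by
    have a : M.mv 16 = 1 := Φ.injective (e.trans (map_one Φ).symm)
    rw [mv_P (w := [4, 6, 4, 4, 7, 7, 4, 4, 6, 4]) d16 (by decide +kernel)] at a
    exact pne_spec (w := []) (by decide +kernel) (HN.θ_inj (a.trans (map_one _).symm))

end Cfsg.H6.HNR
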